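import Cfsg.Prelude.Def_KGroupFacts
import Mathlib.Data.ZMod.QuotientRing
import Mathlib.GroupTheory.FiniteAbelian.Basic

/-!
# Central extensions given by bilinear cocycles
-/

set_option autoImplicit false

namespace Cfsg.Agent.SchurMul

open scoped commutatorElement

universe u v

/-- The central extension of `X` by `A` with cocycle the bilinear map `b`. -/
@[ext]
structure BilExt {X : Type u} {A : Type v} [Group X] [CommGroup A] (b : X →* X →* A) where
  z : A
  pt : X

namespace BilExt

variable {X : Type u} {A : Type v} [Group X] [CommGroup A] {b : X →* X →* A}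

instance instMul : Mul (BilExt b) := ⟨fun u v => ⟨u.z * v.z * b u.pt v.pt, u.pt * v.pt⟩⟩

instance instOne : One (BilExt b) := ⟨⟨1, 1⟩⟩

instance instInv : Inv (BilExt b) := ⟨fun u => ⟨u.z⁻¹ * b u.pt u.pt, u.pt⁻¹⟩⟩

theorem mul_z (u v : BilExt b) : (u * v).z = u.z * v.z * b u.pt v.pt := rfl

theorem mul_pt (u v : BilExt b) : (u * v).pt = u.pt * v.pt := rfl

instance instGroup : Group (BilExt b) where
  mul_assoc u v w := by
    ext
    · simp only [mul_z, mul_pt, map_mul, MonoidHom.mul_apply]
      simp only [mul_comm, mul_left_comm, mul_assoc]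
    · simp only [mul_pt, mul_assoc]
  one_mul u := by
    ext
    · show 1 * u.z * b 1 u.pt = u.z
      simp
    · exact one_mul u.pt
  mul_one u := by
    ext
    · show u.z * 1 * b u.pt 1 = u.z
      simp
    · exact mul_one u.pt
  inv_mul_cancel u := by
    ext
    · show u.z⁻¹ * b u.pt u.pt * u.z * b u.pt⁻¹ u.pt = 1
      simp only [map_inv, MonoidHom.inv_apply]
      rw [mul_comm (u.z⁻¹) (b u.pt u.pt), inv_mul_cancel_right]
      exact mul_inv_cancel _
    · exact inv_mul_cancel u.pt

/-- The projection of the extension. -/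
def proj : BilExt b →* X where
  toFun u := u.pt
  map_one' := rfl
  map_mul' _ _ := rfl

theorem proj_apply (u : BilExt b) : proj u = u.pt := rfl

theorem proj_surjective : Function.Surjective (proj : BilExt b →* X) := fun x => ⟨⟨1, x⟩, rfl⟩

/-- The embedding of the kernel. -/
def ι : A →* BilExt b where
  toFun a := ⟨a, 1⟩
  map_one' := rfl
  map_mul' a c := by
    ext
    · simp [mul_z]
    · simp [mul_pt]

theorem ι_injective : Function.Injective (ι : A →* BilExt b) := fun _ _ h => congrArg BilExt.z h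

theorem mem_ker_proj {u : BilExt b} : u ∈ (proj : BilExt b →* X).ker ↔ u = ι u.z := by
  constructor
  · intro h
    ext
    · rfl
    · exact h
  · intro h
    rw [h]
    rfl

theorem ker_proj : (proj : BilExt b →* X).ker = (ι : A →* BilExt b).range := by
  ext u
  exact ⟨fun h => ⟨u.z, (mem_ker_proj.1 h).symm⟩, fun ⟨a, ha⟩ => ha ▸ rfl⟩

theorem ker_proj_le_center : (proj : BilExt b →* X).ker ≤ Subgroup.center (BilExt b) := by
  intro u hu
  rw [Subgroup.mem_center_iff]
  intro v
  have h : u.pt = 1 := hu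
  ext
  · rw [mul_z, mul_z, h, map_one, map_one, MonoidHom.one_apply, mul_comm v.z]
  · rw [mul_pt, mul_pt, h, one_mul, mul_one]

/-- The kernel of the projection is the coefficient group. -/
noncomputable def kerEquiv : (proj : BilExt b →* X).ker ≃* A :=
  ((MulEquiv.subgroupCongr ker_proj).trans (MonoidHom.ofInjective ι_injective).symm)

theorem finite [Finite X] [Finite A] : Finite (BilExt b) :=
  Finite.of_injective (fun u : BilExt b => (u.z, u.pt)) fun _ _ h =>
    BilExt.ext (congrArg Prod.fst h) (congrArg Prod.snd h)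

theorem commutator_of_commute {x y : X} (h : Commute x y) :
    ι (b x y * (b y x)⁻¹) ∈ commutator (BilExt b) := by
  have : ι (b x y * (b y x)⁻¹) = ⁅(⟨1, x⟩ : BilExt b), (⟨1, y⟩ : BilExt b)⁆ := by
    rw [commutatorElement_def, mul_assoc, mul_assoc, ← mul_inv_rev, ← mul_assoc, eq_mul_inv_iff_mul_eq]
    ext
    · simp only [mul_z, mul_pt, ι, MonoidHom.coe_mk, OneHom.coe_mk, map_one, MonoidHom.one_apply,
        mul_one, one_mul, inv_mul_cancel_right]
    · simp only [mul_pt, ι, MonoidHom.coe_mk, OneHom.coe_mk, one_mul]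
      exact h.eq.symm
  rw [this]
  exact Subgroup.commutator_mem_commutator (Subgroup.mem_top _) (Subgroup.mem_top _)

end BilExt

open BilExt

/-- A bilinear map into `ZMod n` written multiplicatively. -/
def zmodBil {X : Type u} [Group X] {n : ℕ} (φ ψ : X →* Multiplicative (ZMod n)) :
    X →* X →* Multiplicative (ZMod n) where
  toFun x :=
    { toFun := fun y => Multiplicative.ofAdd ((φ x).toAdd * (ψ y).toAdd)
      map_one' := by simp
      map_mul' := fun y y' => by simp [mul_add] }
  map_one' := by ext y; simp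
  map_mul' x x' := by ext y; simp [add_mul]

theorem zmodBil_apply {X : Type u} [Group X] {n : ℕ} (φ ψ : X →* Multiplicative (ZMod n))
    (x y : X) : zmodBil φ ψ x y = Multiplicative.ofAdd ((φ x).toAdd * (ψ y).toAdd) := rfl

/-- A stem extension with cyclic kernel of order `n` attached to two characters dual to a
commuting pair of elements. -/
theorem exists_stem_of_dual_pair {X : Type u} [Group X] [Finite X] {n : ℕ} [NeZero n]
    (φ ψ : X →* Multiplicative (ZMod n)) (x y : X) (hxy : Commute x y)
    (h1 : φ x = Multiplicative.ofAdd 1) (h2 : ψ y = Multiplicative.ofAdd 1) (h3 : φ y = 1) :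
    ∃ (W : Type u) (_ : Group W) (_ : Finite W) (σ : W →* X), IsStemExtension σ ∧
      Nonempty (σ.ker ≃* Multiplicative (ZMod n)) := by
  refine ⟨BilExt (zmodBil φ ψ), inferInstance, BilExt.finite, proj,
    ⟨proj_surjective, ker_proj_le_center, ?_⟩, ⟨kerEquiv⟩⟩
  rw [ker_proj]
  rintro _ ⟨a, rfl⟩
  obtain ⟨k, hk⟩ := ZMod.intCast_surjective a.toAdd
  have ha : a = (zmodBil φ ψ x y * (zmodBil φ ψ y x)⁻¹) ^ k := by
    rw [zmodBil_apply, zmodBil_apply, h1, h2, h3]
    apply Multiplicative.toAdd.injective
    simp [hk]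
  rw [ha, map_zpow]
  exact zpow_mem (commutator_of_commute hxy) k

/-- A finite abelian group is cyclic, or has a dual pair for some prime. -/
theorem isCyclic_or_dual_pair (X : Type u) [CommGroup X] [Finite X] :
    IsCyclic X ∨ ∃ (p : ℕ) (φ ψ : X →* Multiplicative (ZMod p)) (x y : X), p.Prime ∧
      φ x = Multiplicative.ofAdd 1 ∧ ψ y = Multiplicative.ofAdd 1 ∧ φ y = 1 := by
  classical
  obtain ⟨ι, _, n, hn, ⟨e⟩⟩ := CommGroup.equiv_prod_multiplicative_zmod_of_finite X
  by_cases hc : Pairwise fun i j => Nat.Coprime (n i) (n j)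
  · left
    let a : Multiplicative (ZMod (∏ i, n i)) ≃* Multiplicative (∀ i, ZMod (n i)) :=
      (ZMod.prodEquivPi n hc).toAddEquiv.toMultiplicative
    let a' : Multiplicative (ZMod (∏ i, n i)) ≃* X :=
      (a.trans (MulEquiv.piMultiplicative _)).trans e.symm
    exact isCyclic_of_surjective a'.toMonoidHom a'.surjective
  · right
    simp only [Pairwise, not_forall] at hc
    obtain ⟨i, j, hij, hco⟩ := hc
    obtain ⟨p, hp, hpi, hpj⟩ := Nat.Prime.not_coprime_iff_dvd.1 hco
    let pr : ∀ k, p ∣ n k → (X →* Multiplicative (ZMod p)) := fun k hk =>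
      ((ZMod.castHom hk (ZMod p)).toAddMonoidHom.toMultiplicative.comp
        (Pi.evalMonoidHom (fun k => Multiplicative (ZMod (n k))) k)).comp e.toMonoidHom
    refine ⟨p, pr i hpi, pr j hpj, e.symm (Pi.mulSingle i (Multiplicative.ofAdd 1)),
      e.symm (Pi.mulSingle j (Multiplicative.ofAdd 1)), hp, ?_, ?_, ?_⟩
    · simp [pr, AddMonoidHom.toMultiplicative, ZMod.cast_one hpi]
    · simp [pr, AddMonoidHom.toMultiplicative, ZMod.cast_one hpj]
    · simp [pr, AddMonoidHom.toMultiplicative, Pi.mulSingle_eq_of_ne hij]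

end Cfsg.Agent.SchurMul
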