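import Cfsg.Agent.CentralExt.Basic
import Cfsg.Agent.Char.Orthogonality
import Mathlib.GroupTheory.FiniteAbelian.Duality
import Mathlib.Analysis.Complex.Polynomial.Basic

/-!
# The exponent of the multiplier squared divides the group order
-/

set_option autoImplicit false

namespace Cfsg.Agent.SchurMul

universe u v w

open Subgroup CentralExt

/-- Schur's lemma: central commutator elements act by roots of unity of order dividing the
degree. -/
theorem exists_central_char {Γ : Type w} [Group Γ] [Finite Γ] (Z : Subgroup Γ) (hZ : Z ≤ center Γ)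
    (hZ' : Z ≤ commutator Γ) {χ : Γ → ℂ} (hχ : IsIrrCharacter Γ χ) :
    ∃ (d : ℕ) (μ : Z →* ℂˣ), χ 1 = d ∧ (∀ z : Z, χ z = (μ z : ℂ) * d) ∧ μ ^ d = 1 := by
  obtain ⟨n, ρ, hρ, rfl⟩ := hχ
  haveI := hρ
  haveI := Char.nontrivial_of_isIrreducible ρ
  have hscal : ∀ z : Z, ∃ c : ℂ, ρ (z : Γ) = c • LinearMap.id := by
    intro z
    obtain ⟨c, hc⟩ := Module.End.exists_eigenvalue (ρ (z : Γ))
    refine ⟨c, ?_⟩
    have htop : Module.End.eigenspace (ρ (z : Γ)) c = ⊤ := by
      refine ((Char.isIrreducible_iff_forall ρ).1 hρ).2 _ (fun g v hv => ?_) |>.resolve_left hc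
      rw [Module.End.mem_eigenspace_iff] at hv ⊢
      rw [← Module.End.mul_apply, ← map_mul, ← Subgroup.mem_center_iff.1 (hZ z.2) g, map_mul,
        Module.End.mul_apply, hv, map_smul]
    refine LinearMap.ext fun v => ?_
    have hv : v ∈ Module.End.eigenspace (ρ (z : Γ)) c := htop ▸ Submodule.mem_top
    simpa using Module.End.mem_eigenspace_iff.1 hv
  choose c hc using hscal
  have hn : 0 < n := by
    rcases Nat.eq_zero_or_pos n with rfl | h
    · exact absurd (inferInstance : Subsingleton (Fin 0 → ℂ)) (not_subsingleton _)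
    · exact h
  have hinj : ∀ a b : ℂ, a • (LinearMap.id : (Fin n → ℂ) →ₗ[ℂ] Fin n → ℂ) = b • LinearMap.id →
      a = b := fun a b h => by
    have := congrFun (LinearMap.congr_fun h (fun _ => 1)) ⟨0, hn⟩
    simpa using this
  let μ₀ : Z →* ℂ :=
    { toFun := c
      map_one' := hinj _ _ (by rw [← hc, OneMemClass.coe_one, map_one, one_smul]; rfl)
      map_mul' := fun a b => hinj _ _ (by
        rw [← hc, Subgroup.coe_mul, map_mul, hc, hc]
        refine LinearMap.ext fun v => ?_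
        simp [smul_smul, mul_comm]) }
  refine ⟨n, μ₀.toHomUnits, by simp [Representation.character], fun z => ?_, ?_⟩
  · show LinearMap.trace ℂ _ (ρ (z : Γ)) = c z * n
    rw [hc]
    simp
  · ext z
    show (c z) ^ n = 1
    let D : Γ →* ℂˣ := ((LinearMap.det).comp ρ).toHomUnits
    have h1 : D (z : Γ) = 1 := Abelianization.commutator_subset_ker D (hZ' z.2)
    have h2 := congrArg Units.val h1
    change LinearMap.det (ρ (z : Γ)) = 1 at h2
    rw [hc, LinearMap.det_smul, LinearMap.det_id, mul_one, Module.finrank_fin_fun] at h2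
    exact h2

theorem exponent_sq_dvd_card {Q : Type u} [Group Q] [Finite Q] {A : Type v} [CommGroup A]
    (hA : HasSchurMultiplier Q A) : Monoid.exponent A ^ 2 ∣ Nat.card Q := by
  classical
  haveI := finite_multiplier_of_hasSchurMultiplier hA
  obtain ⟨⟨Γ, iΓ, fΓ, σ, hσ, ⟨e⟩⟩, -⟩ := hA
  letI : CommGroup σ.ker :=
    { (inferInstance : Group σ.ker) with
      mul_comm := fun a b => Subtype.ext (Subgroup.mem_center_iff.1 (hσ.2.1 b.2) (a : Γ)) }
  haveI : Fintype Γ := Fintype.ofFinite Γ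
  haveI : Fintype σ.ker := Fintype.ofFinite _
  rw [← Monoid.exponent_eq_of_mulEquiv e]
  haveI : NeZero (Monoid.exponent σ.ker) := ⟨Monoid.exponent_ne_zero_of_finite⟩
  obtain ⟨a, ha⟩ := Monoid.exists_orderOf_eq_exponent
    (Monoid.ExponentExists.of_finite (G := σ.ker))
  obtain ⟨d₀⟩ := CommGroup.monoidHom_mulEquiv_of_hasEnoughRootsOfUnity σ.ker ℂ
  set lam : σ.ker →* ℂˣ := d₀.symm a
  have hlam : orderOf lam = Monoid.exponent σ.ker := by
    rw [← ha]; exact MulEquiv.orderOf_eq d₀.symm a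
  choose d μ hd hμ hμd using fun χ : IrrCharacter Γ => exists_central_char σ.ker hσ.2.1 hσ.2.2 χ.2
  have key : ∀ χ : IrrCharacter Γ,
      ∑ z : σ.ker, ((lam⁻¹ z : ℂˣ) : ℂ) * ((χ : Γ → ℂ) 1 * (χ : Γ → ℂ) z) =
        if μ χ = lam then (Fintype.card σ.ker : ℂ) * (d χ : ℂ) ^ 2 else 0 := by
    intro χ
    have h1 : ∀ z : σ.ker, ((lam⁻¹ z : ℂˣ) : ℂ) * ((χ : Γ → ℂ) 1 * (χ : Γ → ℂ) z) =
        (((lam⁻¹ * μ χ) z : ℂˣ) : ℂ) * (d χ : ℂ) ^ 2 := by
      intro z
      rw [hd, hμ, MonoidHom.mul_apply, Units.val_mul]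
      ring
    rw [Finset.sum_congr rfl fun z _ => h1 z, ← Finset.sum_mul]
    by_cases h : μ χ = lam
    · rw [if_pos h, h]
      simp
    · rw [if_neg h]
      have hne : (Units.coeHom ℂ).comp (lam⁻¹ * μ χ) ≠ 1 := fun h2 => h (by
        refine (inv_mul_eq_one.1 ?_).symm
        ext z
        exact DFunLike.congr_fun h2 z)
      have h3 : ∑ z : σ.ker, (((lam⁻¹ * μ χ) z : ℂˣ) : ℂ) = 0 :=
        sum_hom_units_eq_zero ((Units.coeHom ℂ).comp (lam⁻¹ * μ χ)) hne
      rw [h3, zero_mul]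
  have hsum : ∑ z : σ.ker, ((lam⁻¹ z : ℂˣ) : ℂ) *
      ∑ χ : IrrCharacter Γ, (χ : Γ → ℂ) 1 * (χ : Γ → ℂ) z = (Nat.card Γ : ℂ) := by
    rw [Finset.sum_eq_single 1]
    · rw [Char.sum_irr_degree_mul]
      simp
    · intro z _ hz
      rw [Char.sum_irr_degree_mul, if_neg (fun h => hz (Subtype.ext (by simpa using h))), mul_zero]
    · simp
  have hmain : (Nat.card σ.ker * ∑ χ : IrrCharacter Γ, (if μ χ = lam then d χ ^ 2 else 0) : ℕ) =
      Nat.card Γ := by
    have h2 : ((Nat.card σ.ker * ∑ χ : IrrCharacter Γ, (if μ χ = lam then d χ ^ 2 else 0) : ℕ) : ℂ) =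
        (Nat.card Γ : ℂ) := by
      rw [← hsum, Nat.cast_mul, Nat.cast_sum, Finset.mul_sum]
      rw [show (∑ z : σ.ker, ((lam⁻¹ z : ℂˣ) : ℂ) *
          ∑ χ : IrrCharacter Γ, (χ : Γ → ℂ) 1 * (χ : Γ → ℂ) z) =
          ∑ χ : IrrCharacter Γ, ∑ z : σ.ker,
            ((lam⁻¹ z : ℂˣ) : ℂ) * ((χ : Γ → ℂ) 1 * (χ : Γ → ℂ) z) by
        rw [Finset.sum_comm]; simp_rw [Finset.mul_sum]]
      refine Finset.sum_congr rfl fun χ _ => ?_
      rw [key, Nat.card_eq_fintype_card]
      split_ifs <;> simp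
    exact_mod_cast h2
  have hQ : Nat.card Γ = Nat.card σ.ker * Nat.card Q := by
    rw [Subgroup.card_eq_card_quotient_mul_card_subgroup σ.ker,
      Nat.card_congr (QuotientGroup.quotientKerEquivOfSurjective _ hσ.1).toEquiv, mul_comm]
  rw [hQ] at hmain
  rw [← Nat.eq_of_mul_eq_mul_left Nat.card_pos hmain, ← hlam]
  refine Finset.dvd_sum fun χ _ => ?_
  split_ifs with h
  · exact pow_dvd_pow_of_dvd (h ▸ orderOf_dvd_of_pow_eq_one (hμd χ)) 2
  · exact dvd_zero _

end Cfsg.Agent.SchurMul
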