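import Cfsg.Agent.SchurMul.Cover
import Mathlib.GroupTheory.FiniteAbelian.Duality
import Mathlib.Analysis.Complex.Polynomial.Basic

/-!
# Transfer between Schur multipliers
-/

set_option autoImplicit false

namespace Cfsg.Agent.SchurMul

universe u v w

open Subgroup CentralExt

/-- Monomial pairs: a group element and a tuple indexed by the points it moves. -/
@[ext]
structure Mono (G : Type u) (I : Type v) (V : Type w) where
  g : G
  z : I → V

namespace Mono

variable {G : Type u} {I : Type v} {V : Type w} [Group G] [MulAction G I] [Group V]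

instance instMul : Mul (Mono G I V) := ⟨fun a b => ⟨a.g * b.g, fun i => a.z (b.g • i) * b.z i⟩⟩

instance instOne : One (Mono G I V) := ⟨⟨1, fun _ => 1⟩⟩

instance instInv : Inv (Mono G I V) := ⟨fun a => ⟨a.g⁻¹, fun i => (a.z (a.g⁻¹ • i))⁻¹⟩⟩

theorem mul_g (a b : Mono G I V) : (a * b).g = a.g * b.g := rfl

theorem mul_z (a b : Mono G I V) (i : I) : (a * b).z i = a.z (b.g • i) * b.z i := rfl

instance instGroup : Group (Mono G I V) where
  mul_assoc a b c := by
    ext i
    · exact mul_assoc _ _ _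
    · simp only [mul_z, mul_g, mul_smul, mul_assoc]
  one_mul a := by
    ext i
    · exact one_mul _
    · exact one_mul _
  mul_one a := by
    ext i
    · exact mul_one _
    · show a.z ((1 : G) • i) * 1 = a.z i
      rw [one_smul, mul_one]
  inv_mul_cancel a := by
    ext i
    · exact inv_mul_cancel _
    · show (a.z (a.g⁻¹ • a.g • i))⁻¹ * a.z i = 1
      rw [inv_smul_smul, inv_mul_cancel]

/-- The projection. -/
def fst : Mono G I V →* G where
  toFun a := a.g
  map_one' := rfl
  map_mul' _ _ := rfl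

end Mono

variable {G : Type u} [Group G]

theorem hopf_mem_schurMult_of_pow {x : HopfExt G} (hx : x ∈ (hopfPi G).ker) {k : ℕ} (hk : k ≠ 0)
    (h : x ^ k = 1) : x ∈ schurMult G := by
  refine ⟨hx, (hopfDeg_eq_one_iff G).1 (Multiplicative.toAdd.injective ?_)⟩
  have h1 := congrArg Multiplicative.toAdd (congrArg (hopfDeg G) h)
  rw [map_pow, map_one, toAdd_pow, toAdd_one] at h1
  ext g
  have h2 := congrArg (fun f : G →₀ ℤ => f g) h1
  simpa [hk] using h2

/-- The transfer to a subgroup inverts the natural map up to the index. -/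
theorem exists_transfer [Finite G] (U : Subgroup G) :
    ∃ (φ : schurMult G →* schurMult U) (s : schurMult U →* schurMult G),
      ∀ z, s (φ z) = z ^ U.index := by
  classical
  haveI : Fintype (G ⧸ U) := Fintype.ofFinite _
  -- sections
  let r : G ⧸ U → G := Quotient.out
  have hr : ∀ i, (QuotientGroup.mk (r i) : G ⧸ U) = i := fun i => QuotientGroup.out_eq' i
  have hu : ∀ (g : G) (i : G ⧸ U), (r (g • i))⁻¹ * g * r i ∈ U := by
    intro g i
    have h : (QuotientGroup.mk (r (g • i)) : G ⧸ U) = QuotientGroup.mk (g * r i) := by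
      rw [hr]
      conv_lhs => rw [← hr i]
      rfl
    rw [mul_assoc]
    exact QuotientGroup.eq.1 h
  let u : G → G ⧸ U → U := fun g i => ⟨_, hu g i⟩
  have hu_mul : ∀ g h i, u (g * h) i = u g (h • i) * u h i := fun g h i => Subtype.ext (by
    show (r ((g * h) • i))⁻¹ * (g * h) * r i = _
    simp only [Subgroup.coe_mul, u, mul_smul]
    group)
  -- the good monomial pairs
  let Good : Subgroup (Mono G (G ⧸ U) (HopfExt U)) :=
    { carrier := {a | ∀ i, hopfPi U (a.z i) = u a.g i}
      one_mem' := fun i => by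
        show hopfPi U 1 = u 1 i
        rw [map_one]
        exact Subtype.ext (by simp [u])
      mul_mem' := fun {a b} ha hb i => by
        show hopfPi U ((a * b).z i) = u (a * b).g i
        rw [Mono.mul_z, map_mul, ha, hb, Mono.mul_g, hu_mul]
      inv_mem' := fun {a} ha i => by
        show hopfPi U ((a.z (a.g⁻¹ • i))⁻¹) = u a.g⁻¹ i
        rw [map_inv, ha, inv_eq_iff_mul_eq_one, ← hu_mul, mul_inv_cancel]
        exact Subtype.ext (by simp [u]) }
  let σU : U → HopfExt U := Function.surjInv (hopfPi_surjective U)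
  let L : FreeGroup G →* Good :=
    FreeGroup.lift fun g => ⟨⟨g, fun i => σU (u g i)⟩, fun i => Function.surjInv_eq _ _⟩
  let π₀ : FreeGroup G →* G := FreeGroup.lift (id : G → G)
  have hLg : ∀ x, (L x).1.g = π₀ x := by
    intro x
    have : (Mono.fst.comp (Good.subtype.comp L)) = π₀ := by
      apply FreeGroup.ext_hom
      intro g
      simp [L, π₀, Mono.fst]
    exact DFunLike.congr_fun this x
  let KU : Subgroup (HopfExt U) := (hopfPi U).ker
  letI : CommGroup KU :=
    { (inferInstance : Group KU) with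
      mul_comm := fun a b =>
        Subtype.ext (Subgroup.mem_center_iff.1 (hopfPi_ker_le_center U b.2) (a : HopfExt U)) }
  have hz : ∀ (x : relKer G) (i : G ⧸ U), (L x).1.z i ∈ KU := by
    intro x i
    rw [MonoidHom.mem_ker, (L x).2 i, hLg, MonoidHom.mem_ker.1 x.2]
    exact Subtype.ext (by simp [u])
  let Θ : relKer G →* KU :=
    { toFun := fun x => ∏ i, ⟨(L x).1.z i, hz x i⟩
      map_one' := by
        refine Finset.prod_eq_one fun i _ => Subtype.ext ?_
        show (L (1 : relKer G).1).1.z i = 1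
        rw [OneMemClass.coe_one, map_one]
        rfl
      map_mul' := fun x y => by
        rw [← Finset.prod_mul_distrib]
        refine Finset.prod_congr rfl fun i _ => Subtype.ext ?_
        show (L (x * y : relKer G).1).1.z i = (L x).1.z i * (L y).1.z i
        rw [Subgroup.coe_mul, map_mul, Subgroup.coe_mul, Mono.mul_z, hLg,
          MonoidHom.mem_ker.1 y.2, one_smul] }
  have hΘ : ∀ (x : relKer G) (f : FreeGroup G),
      Θ ⟨f * x * f⁻¹, (relKer_normal G).conj_mem _ x.2 f⟩ = Θ x := by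
    intro x f
    show (∏ i, _) = ∏ i, _
    refine Fintype.prod_equiv (MulAction.toPerm ((π₀ f)⁻¹)) _ _ fun i => Subtype.ext ?_
    show (L (f * x * f⁻¹)).1.z i = (L x).1.z ((π₀ f)⁻¹ • i)
    set j := (π₀ f)⁻¹ • i with hj
    have h1 : f * (x : FreeGroup G) = (f * x * f⁻¹) * f := by group
    have h2 := congrArg (fun a => (L a).1.z j) h1
    simp only [map_mul L f (x : FreeGroup G), map_mul L (f * x * f⁻¹) f, Subgroup.coe_mul,
      Mono.mul_z, hLg, MonoidHom.mem_ker.1 x.2, one_smul] at h2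
    rw [MonoidHom.mem_ker.1 x.2] at h2
    simp only [one_smul, hj, smul_inv_smul] at h2
    rw [Subgroup.mem_center_iff.1 (hopfPi_ker_le_center U (hz x _)) _] at h2
    · exact (mul_right_cancel h2).symm
  have hker : ∀ x : relKer G, hopfMk G x = 1 → Θ x = 1 := by
    intro x hx
    have hx' : (x : FreeGroup G) ∈ ⁅relKer G, (⊤ : Subgroup (FreeGroup G))⁆ :=
      (QuotientGroup.eq_one_iff _).1 hx
    let T : Subgroup (FreeGroup G) := Θ.ker.map (relKer G).subtype
    have hT : ⁅relKer G, (⊤ : Subgroup (FreeGroup G))⁆ ≤ T := by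
      rw [Subgroup.commutator_le]
      intro a ha f _
      refine ⟨⟨a, ha⟩ * ⟨f * a⁻¹ * f⁻¹, (relKer_normal G).conj_mem _ (inv_mem ha) f⟩, ?_, ?_⟩
      · show Θ (_ * _) = 1
        rw [map_mul, hΘ ⟨a⁻¹, inv_mem ha⟩ f, ← map_mul]
        convert map_one Θ
        exact Subtype.ext (mul_inv_cancel a)
      · show a * (f * a⁻¹ * f⁻¹) = _
        rw [commutatorElement_def]
        group
    obtain ⟨y, hy, hyx⟩ := hT hx'
    rwa [← Subtype.ext hyx]
  let mkR : relKer G →* (hopfPi G).ker :=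
    ((hopfMk G).comp (relKer G).subtype).codRestrict _ (fun x => x.2)
  have hmkR : Function.Surjective mkR := by
    rintro ⟨e, he⟩
    obtain ⟨x, rfl⟩ := hopfMk_surjective G e
    exact ⟨⟨x, he⟩, rfl⟩
  let Φ : (hopfPi G).ker →* KU := mkR.liftOfSurjective hmkR
    ⟨Θ, fun x hx => hker x (congrArg Subtype.val hx)⟩
  -- comparison inside the Hopf extension of `G`
  let H : Subgroup (HopfExt G) := U.comap (hopfPi G)
  let τ : H →* U := (hopfPi G).subgroupComap U
  have hτ : Function.Surjective τ := fun y => by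
    obtain ⟨e, he⟩ := hopfPi_surjective G (y : G)
    exact ⟨⟨e, show hopfPi G e ∈ U by rw [he]; exact y.2⟩, Subtype.ext he⟩
  have hτc : τ.ker ≤ center H := by
    intro e he
    rw [Subgroup.mem_center_iff]
    intro f
    exact Subtype.ext (Subgroup.mem_center_iff.1
      (hopfPi_ker_le_center G (show (e : HopfExt G) ∈ (hopfPi G).ker from congrArg Subtype.val he))
      (f : HopfExt G))
  obtain ⟨ψ, hψ⟩ := exists_hopfLift τ hτ hτc
  let ψ' : HopfExt U →* HopfExt G := H.subtype.comp ψ
  have hψ' : ∀ e, hopfPi G (ψ' e) = (hopfPi U e : G) := fun e =>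
    congrArg Subtype.val (DFunLike.congr_fun hψ e)
  have hr' : ∀ i, ∃ e, hopfPi G e = r i := fun i => hopfPi_surjective G (r i)
  choose R hR using hr'
  let KG : Subgroup (HopfExt G) := (hopfPi G).ker
  letI : CommGroup KG :=
    { (inferInstance : Group KG) with
      mul_comm := fun a b =>
        Subtype.ext (Subgroup.mem_center_iff.1 (hopfPi_ker_le_center G b.2) (a : HopfExt G)) }
  have hc : ∀ (x : FreeGroup G) (i : G ⧸ U),
      ψ' ((L x).1.z i) * ((R (π₀ x • i))⁻¹ * hopfMk G x * R i)⁻¹ ∈ KG := by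
    intro x i
    rw [MonoidHom.mem_ker, map_mul, map_inv, map_mul, map_mul, map_inv, hψ', (L x).2 i, hR, hR,
      hopfPi_mk, hLg]
    exact mul_inv_cancel _
  let C : FreeGroup G →* KG :=
    { toFun := fun x => ∏ i, ⟨_, hc x i⟩
      map_one' := by
        refine Finset.prod_eq_one fun i _ => Subtype.ext ?_
        show ψ' ((L 1).1.z i) * ((R (π₀ 1 • i))⁻¹ * hopfMk G 1 * R i)⁻¹ = 1
        rw [map_one L, OneMemClass.coe_one, map_one π₀, one_smul, map_one (hopfMk G), mul_one,
          inv_mul_cancel, inv_one, mul_one]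
        exact map_one ψ'
      map_mul' := fun x y => by
        rw [← Equiv.prod_comp (MulAction.toPerm (π₀ y))
          (fun i => (⟨_, hc x i⟩ : KG)), ← Finset.prod_mul_distrib]
        refine Finset.prod_congr rfl fun i _ => Subtype.ext ?_
        show ψ' ((L (x * y)).1.z i) * ((R (π₀ (x * y) • i))⁻¹ * hopfMk G (x * y) * R i)⁻¹ =
          (ψ' ((L x).1.z (π₀ y • i)) *
            ((R (π₀ x • π₀ y • i))⁻¹ * hopfMk G x * R (π₀ y • i))⁻¹) *
          (ψ' ((L y).1.z i) * ((R (π₀ y • i))⁻¹ * hopfMk G y * R i)⁻¹)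
        have hcy := hopf_eq_comm (hc y i)
          ((R (π₀ x • π₀ y • i))⁻¹ * hopfMk G x * R (π₀ y • i))⁻¹
        rw [map_mul L, Subgroup.coe_mul, Mono.mul_z, hLg, map_mul π₀, mul_smul,
          map_mul (hopfMk G), map_mul ψ', mul_assoc (ψ' ((L x).1.z (π₀ y • i))) _
            (ψ' ((L y).1.z i) * _), hcy]
        group }
  have hC : commutator (FreeGroup G) ≤ C.ker := Abelianization.commutator_subset_ker C
  -- the transfer and the natural map
  let s₀ : schurMult U →* HopfExt G := ψ'.comp (schurMult U).subtype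
  have hs₀ : ∀ a, s₀ a ∈ schurMult G := fun a => by
    refine ⟨?_, ?_⟩
    · show hopfPi G (ψ' a) = 1
      rw [hψ', MonoidHom.mem_ker.1 a.2.1]
      rfl
    · exact (show (commutator (HopfExt U)).map ψ' ≤ commutator (HopfExt G) by
          rw [_root_.commutator_def, _root_.commutator_def, Subgroup.map_commutator]
          exact commutator_mono le_top le_top) (Subgroup.mem_map_of_mem ψ' a.2.2)
  let φ₀ : schurMult G →* KU :=
    Φ.comp (Subgroup.inclusion (inf_le_left : schurMult G ≤ (hopfPi G).ker))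
  have hφ₀ : ∀ z, (φ₀ z : HopfExt U) ∈ schurMult U := fun z => by
    refine hopf_mem_schurMult_of_pow (φ₀ z).2 (orderOf_pos z).ne' ?_
    rw [← SubgroupClass.coe_pow, ← map_pow, pow_orderOf_eq_one, map_one]
    rfl
  refine ⟨(KU.subtype.comp φ₀).codRestrict _ hφ₀, s₀.codRestrict _ hs₀, fun z => ?_⟩
  apply Subtype.ext
  show ψ' (φ₀ z : HopfExt U) = ((z ^ U.index : schurMult G) : HopfExt G)
  have hz2 : (z : HopfExt G) ∈ (commutator (FreeGroup G)).map (hopfMk G) := by
    rw [map_commutator_top _ (hopfMk_surjective G)]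
    exact z.2.2
  obtain ⟨x, hx, hxz⟩ := hz2
  have hxR : x ∈ relKer G := by
    have h := MonoidHom.mem_ker.1 z.2.1
    rwa [← hxz, hopfPi_mk] at h
  have hΦ : φ₀ z = Θ ⟨x, hxR⟩ := by
    have h : Subgroup.inclusion (inf_le_left : schurMult G ≤ (hopfPi G).ker) z =
        mkR ⟨x, hxR⟩ := Subtype.ext hxz.symm
    show Φ (Subgroup.inclusion (inf_le_left : schurMult G ≤ (hopfPi G).ker) z) = _
    rw [show Subgroup.inclusion (inf_le_left : schurMult G ≤ (hopfPi G).ker) z =
        mkR ⟨x, hxR⟩ from h]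
    exact MonoidHom.liftOfRightInverse_comp_apply _ _ _ _ _
  rw [hΦ]
  let ψK : KU →* KG := (ψ'.comp KU.subtype).codRestrict KG (fun a => by
    rw [MonoidHom.mem_ker]
    show hopfPi G (ψ' a) = 1
    rw [hψ', MonoidHom.mem_ker.1 a.2]
    rfl)
  have hterm : ∀ i, ψK ⟨(L x).1.z i, hz ⟨x, hxR⟩ i⟩ =
      (⟨_, hc x i⟩ : KG) * ⟨(z : HopfExt G), z.2.1⟩ := by
    intro i
    apply Subtype.ext
    show ψ' ((L x).1.z i) =
      ψ' ((L x).1.z i) * ((R (π₀ x • i))⁻¹ * hopfMk G x * R i)⁻¹ * (z : HopfExt G)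
    rw [MonoidHom.mem_ker.1 hxR, one_smul, hxz, hopf_eq_comm z.2.1 (R i)⁻¹, inv_mul_cancel_right,
      inv_mul_cancel_right]
  show ((ψK (Θ ⟨x, hxR⟩) : KG) : HopfExt G) = _
  have hprod : ψK (Θ ⟨x, hxR⟩) = (⟨(z : HopfExt G), z.2.1⟩ : KG) ^ U.index := by
    show ψK (∏ i, _) = _
    rw [map_prod, Finset.prod_congr rfl (fun i _ => hterm i), Finset.prod_mul_distrib,
      show (∏ i, (⟨_, hc x i⟩ : KG)) = 1 from hC hx, one_mul, Finset.prod_const, Finset.card_univ,
      ← Nat.card_eq_fintype_card]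
    rfl
  rw [hprod]
  rfl

/-- A subquotient of a finite abelian group embeds in it. -/
theorem exists_subgroup_equiv_of_surjective {P : Type v} {S : Type w} [CommGroup P] [CommGroup S]
    [Finite P] (f : P →* S) (hf : Function.Surjective f) : ∃ C : Subgroup P, Nonempty (S ≃* C) := by
  haveI : Finite S := Finite.of_surjective f hf
  haveI : NeZero (Monoid.exponent P) := ⟨Monoid.exponent_ne_zero_of_finite⟩
  haveI : NeZero (Monoid.exponent S) := ⟨Monoid.exponent_ne_zero_of_finite⟩
  obtain ⟨eP⟩ := CommGroup.monoidHom_mulEquiv_of_hasEnoughRootsOfUnity P ℂ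
  obtain ⟨eS⟩ := CommGroup.monoidHom_mulEquiv_of_hasEnoughRootsOfUnity S ℂ
  let j : S →* P := eP.toMonoidHom.comp
    (({ toFun := fun χ => χ.comp f, map_one' := rfl, map_mul' := fun _ _ => rfl } :
      (S →* ℂˣ) →* (P →* ℂˣ)).comp eS.symm.toMonoidHom)
  have hj : Function.Injective j := fun a b h => by
    apply eS.symm.injective
    refine MonoidHom.ext fun y => ?_
    obtain ⟨y, rfl⟩ := hf y
    exact DFunLike.congr_fun (eP.injective h) y
  exact ⟨j.range, ⟨MonoidHom.ofInjective hj⟩⟩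

theorem exists_transfer' [Finite G] (U : Subgroup G) {A : Type v} {B : Type w} [CommGroup A]
    [CommGroup B] (hA : HasSchurMultiplier G A) (hB : HasSchurMultiplier U B) :
    ∃ (φ : A →* B) (s : B →* A), ∀ a, s (φ a) = a ^ U.index := by
  obtain ⟨φ, s, h⟩ := exists_transfer U
  obtain ⟨i⟩ := nonempty_mulEquiv_schurMult hA
  obtain ⟨k⟩ := nonempty_mulEquiv_schurMult hB
  refine ⟨(k.symm.toMonoidHom.comp φ).comp i.toMonoidHom,
    (i.symm.toMonoidHom.comp s).comp k.toMonoidHom, fun a => ?_⟩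
  simp [h]

theorem powers_embed [Finite G] (U : Subgroup G) {A : Type v} {B : Type w} [CommGroup A]
    [CommGroup B] (hA : HasSchurMultiplier G A) (hB : HasSchurMultiplier U B) :
    ∃ C : Subgroup B, Nonempty ((powMonoidHom U.index : A →* A).range ≃* C) := by
  haveI := finite_multiplier_of_hasSchurMultiplier hB
  obtain ⟨φ, s, h⟩ := exists_transfer' U hA hB
  let f : φ.range →* (powMonoidHom U.index : A →* A).range :=
    (s.comp φ.range.subtype).codRestrict _ (fun b => by
      obtain ⟨a, ha⟩ := b.2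
      exact ⟨a, by show a ^ U.index = s b; rw [← ha, h]⟩)
  have hf : Function.Surjective f := by
    rintro ⟨_, a, rfl⟩
    exact ⟨⟨φ a, a, rfl⟩, Subtype.ext (h a)⟩
  obtain ⟨C, ⟨e⟩⟩ := exists_subgroup_equiv_of_surjective f hf
  exact ⟨C.map φ.range.subtype,
    ⟨e.trans (Subgroup.equivMapOfInjective C _ (Subgroup.subtype_injective _))⟩⟩

theorem primary_summand [Finite G] (p : ℕ) [hp : Fact p.Prime] (P : Sylow p G) {A : Type v}
    {B : Type w} [CommGroup A] [CommGroup B] (hA : HasSchurMultiplier G A)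
    (hB : HasSchurMultiplier P B) :
    ∃ C D : Subgroup B, C ⊓ D = ⊥ ∧ C ⊔ D = ⊤ ∧
      Nonempty (CommGroup.primaryComponent A p ≃* C) := by
  haveI := finite_multiplier_of_hasSchurMultiplier hA
  obtain ⟨φ, s, h⟩ := exists_transfer' (P : Subgroup G) hA hB
  set m := (P : Subgroup G).index
  obtain ⟨k, n, hn, hcard⟩ := Nat.exists_eq_pow_mul_and_not_dvd
    (Nat.card_pos (α := A)).ne' p hp.1.ne_one
  have hpk : ∀ a : CommGroup.primaryComponent A p, (a : A) ^ p ^ k = 1 := by
    rintro ⟨a, l, hl⟩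
    obtain ⟨i, -, hi⟩ := (Nat.dvd_prime_pow hp.1).1 (orderOf_dvd_of_pow_eq_one hl)
    rw [← orderOf_dvd_iff_pow_eq_one, hi]
    have h1 : p ^ i ∣ p ^ k * n := hcard ▸ hi ▸ orderOf_dvd_natCard a
    exact (Nat.Coprime.pow_left i (hp.1.coprime_iff_not_dvd.2 hn)).dvd_of_dvd_mul_right h1
  have hco : Nat.Coprime (m * n) (p ^ k) := by
    refine Nat.Coprime.pow_right k (Nat.Coprime.symm ?_)
    exact hp.1.coprime_iff_not_dvd.2 fun hd =>
      (hp.1.dvd_mul.1 hd).elim P.not_dvd_index hn
  obtain ⟨t, ht⟩ : ∃ t : ℕ, ∀ a : A, a ^ p ^ k = 1 → a ^ (m * n * t) = a := by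
    refine ⟨(m * n) ^ (Nat.totient (p ^ k) - 1), fun a ha => ?_⟩
    have h1 := (Nat.ModEq.pow_totient hco).of_dvd (orderOf_dvd_of_pow_eq_one ha)
    rw [← pow_succ', Nat.sub_add_cancel (Nat.totient_pos.2 (pow_pos hp.1.pos k))]
    conv_rhs => rw [← pow_one a]
    exact pow_eq_pow_iff_modEq.2 h1
  let r : B →* CommGroup.primaryComponent A p :=
    ((powMonoidHom (n * t)).comp s).codRestrict _ (fun b => ⟨k, by
      show (s b ^ (n * t)) ^ p ^ k = 1
      rw [← pow_mul, mul_comm n t, mul_assoc, mul_comm n, ← hcard, mul_comm, pow_mul, pow_card_eq_one',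
        one_pow]⟩)
  let j : CommGroup.primaryComponent A p →* B := φ.comp (Subgroup.subtype _)
  have hrj : ∀ a, r (j a) = a := fun a => Subtype.ext (by
    show s (φ (a : A)) ^ (n * t) = a
    rw [h, ← pow_mul, ← mul_assoc]
    exact ht a (hpk a))
  have hj : Function.Injective j := fun a b hab => by rw [← hrj a, hab, hrj b]
  refine ⟨j.range, r.ker, ?_, ?_, ⟨MonoidHom.ofInjective hj⟩⟩
  · rw [eq_bot_iff]
    rintro _ ⟨⟨a, rfl⟩, ha⟩
    change r (j a) = 1 at ha
    rw [hrj] at ha
    rw [ha, map_one]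
    exact one_mem _
  · rw [eq_top_iff]
    intro b _
    rw [show b = j (r b) * ((j (r b))⁻¹ * b) by group]
    refine mul_mem (mem_sup_left ⟨r b, rfl⟩) (mem_sup_right ?_)
    rw [MonoidHom.mem_ker, map_mul, map_inv, hrj, inv_mul_cancel]

end Cfsg.Agent.SchurMul
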