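import Cfsg.Agent.SchurMul.Cover
import Mathlib.Algebra.Category.Grp.Injective
import Mathlib.LinearAlgebra.Matrix.GeneralLinearGroup.Basic
import Mathlib.Analysis.Complex.Polynomial.Basic
import Mathlib.GroupTheory.FiniteAbelian.Duality

/-!
# Projective representations and Schur covers
-/

set_option autoImplicit false

namespace Cfsg.Agent.SchurMul

universe u v w x

open Subgroup CentralExt

/-- Homomorphisms into the centre of a complex general linear group extend. -/
theorem exists_center_extension {E : Type u} [Group E] {n : ℕ} (K : Subgroup E)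
    (hK : K ≤ center E) (hK' : K ⊓ commutator E = ⊥) (f : K →* center (GL (Fin n) ℂ)) :
    ∃ χ : E →* center (GL (Fin n) ℂ), ∀ k : K, χ k = f k := by
  letI : CommGroup K :=
    { (inferInstance : Group K) with
      mul_comm := fun a b => Subtype.ext (Subgroup.mem_center_iff.1 (hK b.2) (a : E)) }
  letI : CommGroup (center (GL (Fin n) ℂ)) :=
    { (inferInstance : Group (center (GL (Fin n) ℂ))) with
      mul_comm := fun a b => Subtype.ext (Subgroup.mem_center_iff.1 b.2 _) }
  have hroot : ∀ (m : ℤ), m ≠ 0 →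
      Function.Surjective fun z : Additive (center (GL (Fin n) ℂ)) => m • z := by
    intro m hm z
    obtain ⟨c, hc⟩ : ((Additive.toMul z : center (GL (Fin n) ℂ)) : GL (Fin n) ℂ) ∈
        (Matrix.GeneralLinearGroup.scalar (Fin n) (R := ℂ)).range := by
      rw [← Matrix.GeneralLinearGroup.center_eq_range_scalar]
      exact (Additive.toMul z).2
    obtain ⟨d, hd⟩ := IsAlgClosed.exists_pow_nat_eq (c : ℂ) (Int.natAbs_pos.2 hm)
    have hd0 : d ≠ 0 := by
      rintro rfl
      rw [zero_pow (Int.natAbs_ne_zero.2 hm)] at hd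
      exact c.ne_zero hd.symm
    have hd' : (Units.mk0 d hd0) ^ m.natAbs = c := Units.ext (by simpa using hd)
    let w : center (GL (Fin n) ℂ) := ⟨Matrix.GeneralLinearGroup.scalar (Fin n) (Units.mk0 d hd0), by
      rw [Matrix.GeneralLinearGroup.center_eq_range_scalar]; exact ⟨_, rfl⟩⟩
    have hw : w ^ m.natAbs = Additive.toMul z := by
      apply Subtype.ext
      rw [SubgroupClass.coe_pow, ← map_pow, hd', hc]
    rcases Int.natAbs_eq m with h | h
    · refine ⟨Additive.ofMul w, ?_⟩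
      apply Additive.toMul.injective
      show (w ^ m : center (GL (Fin n) ℂ)) = _
      rw [h, zpow_natCast, hw]
    · refine ⟨Additive.ofMul w⁻¹, ?_⟩
      apply Additive.toMul.injective
      show (w⁻¹ ^ m : center (GL (Fin n) ℂ)) = _
      rw [h, zpow_neg, zpow_natCast, inv_pow, inv_inv, hw]
  letI : DivisibleBy (Additive (center (GL (Fin n) ℂ))) ℤ :=
    divisibleByOfSMulRightSurj _ _ (fun {m} hm => hroot m hm)
  let j : K →* Abelianization E := Abelianization.of.comp K.subtype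
  have hj : Function.Injective j := by
    rw [← MonoidHom.ker_eq_bot_iff, eq_bot_iff]
    intro k hk
    have h1 : (k : E) ∈ commutator E := by
      rw [← Abelianization.ker_of]
      exact hk
    have h2 : (k : E) ∈ K ⊓ commutator E := ⟨k.2, h1⟩
    rw [hK', Subgroup.mem_bot] at h2
    exact Subgroup.mem_bot.2 (Subtype.ext h2)
  obtain ⟨h, hh⟩ := (Module.Baer.of_divisible (Additive (center (GL (Fin n) ℂ))))
    |>.extension_property_addMonoidHom (MonoidHom.toAdditive j) hj (MonoidHom.toAdditive f)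
  refine ⟨(MonoidHom.toAdditive.symm h).comp Abelianization.of, fun k => ?_⟩
  exact congrArg Additive.toMul (DFunLike.congr_fun hh (Additive.ofMul k))

variable {Q : Type u} [Group Q]

/-- Projective representations lift to a Schur cover. -/
theorem exists_lift [Finite Q] {A : Type v} [CommGroup A] (hA : HasSchurMultiplier Q A)
    {Γ : Type w} [Group Γ] [Finite Γ] {σ : Γ →* Q} (hσ : IsStemExtension σ)
    (hk : Nonempty (σ.ker ≃* A)) (n : ℕ) (γ : Q →* (GL (Fin n) ℂ ⧸ center (GL (Fin n) ℂ))) :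
    ∃ ρ : Γ →* GL (Fin n) ℂ,
      (QuotientGroup.mk' (center (GL (Fin n) ℂ))).comp ρ = γ.comp σ := by
  obtain ⟨ψ, hψ, hsurj, hbot, -⟩ := cover_data hA hσ hk
  let mk := QuotientGroup.mk' (center (GL (Fin n) ℂ))
  let X : Subgroup (Q × GL (Fin n) ℂ) :=
    MonoidHom.eqLocus (γ.comp (MonoidHom.fst Q _)) (mk.comp (MonoidHom.snd Q _))
  let τ : X →* Q := (MonoidHom.fst Q _).comp X.subtype
  have hτ : Function.Surjective τ := fun q => by
    obtain ⟨g, hg⟩ := QuotientGroup.mk'_surjective _ (γ q)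
    exact ⟨⟨(q, g), hg.symm⟩, rfl⟩
  have hc : τ.ker ≤ center X := by
    rintro ⟨⟨q, g⟩, hqg⟩ hz
    change q = 1 at hz
    subst hz
    have hg : g ∈ center (GL (Fin n) ℂ) := by
      rw [← QuotientGroup.eq_one_iff]
      exact hqg.symm.trans (map_one γ)
    rw [Subgroup.mem_center_iff]
    rintro ⟨⟨q', g'⟩, h'⟩
    apply Subtype.ext
    show (q' * 1, g' * g) = (1 * q', g * g')
    rw [mul_one, one_mul, Subgroup.mem_center_iff.1 hg g']
  obtain ⟨φ, hφ⟩ := exists_hopfLift τ hτ hc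
  let ψ₀ : HopfExt Q →* GL (Fin n) ℂ := ((MonoidHom.snd Q _).comp X.subtype).comp φ
  have h0 : ∀ x, mk (ψ₀ x) = γ (hopfPi Q x) := fun x => by
    rw [← hφ]
    exact ((φ x).2).symm
  have hKle := ker_le_ker_hopfPi hψ
  have hmem : ∀ k : ψ.ker, ψ₀ k ∈ center (GL (Fin n) ℂ) := fun k => by
    rw [← QuotientGroup.eq_one_iff]
    exact (h0 k).trans (by rw [MonoidHom.mem_ker.1 (hKle k.2), map_one])
  obtain ⟨χ, hχ⟩ := exists_center_extension ψ.ker (hKle.trans (hopfPi_ker_le_center Q)) hbot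
    ((ψ₀.comp ψ.ker.subtype).codRestrict _ hmem)
  let ρ₀ : HopfExt Q →* GL (Fin n) ℂ :=
    { toFun := fun x => ψ₀ x * ((χ x : GL (Fin n) ℂ))⁻¹
      map_one' := by simp
      map_mul' := fun x y => by
        have hx := Subgroup.mem_center_iff.1 (inv_mem (χ x).2) (ψ₀ y * ((χ y : GL (Fin n) ℂ))⁻¹)
        simp only [map_mul, Subgroup.coe_mul, mul_inv_rev]
        rw [mul_assoc, mul_assoc, ← mul_assoc (ψ₀ y), hx] }
  have hkill : ψ.ker ≤ ρ₀.ker := fun k hk => by
    show ψ₀ k * ((χ k : GL (Fin n) ℂ))⁻¹ = 1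
    rw [hχ ⟨k, hk⟩]
    exact mul_inv_cancel _
  refine ⟨ψ.liftOfSurjective hsurj ⟨ρ₀, hkill⟩, ?_⟩
  ext g
  obtain ⟨x, rfl⟩ := hsurj g
  rw [MonoidHom.comp_apply, MonoidHom.liftOfRightInverse_comp_apply, MonoidHom.comp_apply,
    ← MonoidHom.comp_apply σ ψ, hψ, ← h0]
  show mk (ψ₀ x * ((χ x : GL (Fin n) ℂ))⁻¹) = mk (ψ₀ x)
  rw [map_mul, show mk ((χ x : GL (Fin n) ℂ))⁻¹ = 1 from
    (QuotientGroup.eq_one_iff _).2 (inv_mem (χ x).2), mul_one]

/-- A central character of a finite group extends to a monomial representation on cosets. -/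
theorem exists_central_rep {Δ : Type w} [Group Δ] [Finite Δ] (N : Subgroup Δ) (hN : N ≤ center Δ)
    (χ : N →* ℂˣ) :
    ∃ (n : ℕ) (ρ : Δ →* GL (Fin n) ℂ), 0 < n ∧
      ∀ z : N, ρ z = Matrix.GeneralLinearGroup.scalar (Fin n) (χ z) := by
  classical
  have hnc : ∀ z ∈ N, ∀ g : Δ, g * z = z * g := fun z hz => Subgroup.mem_center_iff.1 (hN hz)
  let f := (Finite.equivFin (Δ ⧸ N)).symm
  let s : Fin (Nat.card (Δ ⧸ N)) → Δ := fun i => (f i).out
  have hs : ∀ i, (QuotientGroup.mk (s i) : Δ ⧸ N) = f i := fun i => QuotientGroup.out_eq' (f i)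
  have hmem : ∀ (g : Δ) i j, g • f j = f i → (s i)⁻¹ * g * s j ∈ N := by
    intro g i j h
    rw [← hs j, ← hs i] at h
    rw [mul_assoc]
    exact QuotientGroup.eq.1 h.symm
  let mat : Δ → Matrix (Fin (Nat.card (Δ ⧸ N))) (Fin (Nat.card (Δ ⧸ N))) ℂ :=
    fun g i j => if h : g • f j = f i then (χ ⟨_, hmem g i j h⟩ : ℂ) else 0
  have hmul : ∀ g g', mat (g * g') = mat g * mat g' := by
    intro g g'
    ext i j
    rw [Matrix.mul_apply, Finset.sum_eq_single (f.symm (g' • f j))]
    · have hk : g' • f j = f (f.symm (g' • f j)) := (f.apply_symm_apply _).symm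
      by_cases h : (g * g') • f j = f i
      · have h' : g • f (f.symm (g' • f j)) = f i := by rw [← hk, ← mul_smul, h]
        simp only [mat, dif_pos h, dif_pos h', dif_pos hk, ← Units.val_mul, ← map_mul]
        congr 2
        apply Subtype.ext
        simp only [Subgroup.coe_mul]
        group
      · have h' : ¬ g • f (f.symm (g' • f j)) = f i := by rwa [← hk, ← mul_smul]
        simp [mat, dif_neg h, dif_neg h']
    · intro k _ hk
      have : ¬ g' • f j = f k := fun h => hk (by rw [h, f.symm_apply_apply])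
      simp [mat, dif_neg this]
    · simp
  have hdiag : ∀ z : N, mat z = Matrix.scalar _ (χ z : ℂ) := by
    intro z
    ext i j
    have hz : (z : Δ) • f j = f j := by
      rw [← hs j]
      refine (QuotientGroup.eq.2 ?_).symm
      show (s j)⁻¹ * ((z : Δ) * s j) ∈ N
      rw [← hnc z z.2, inv_mul_cancel_left]
      exact z.2
    rcases eq_or_ne i j with rfl | hij
    · simp only [mat, dif_pos hz, Matrix.scalar_apply, Matrix.diagonal_apply_eq]
      congr 2
      apply Subtype.ext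
      show (s i)⁻¹ * z * s i = z
      rw [mul_assoc, ← hnc z z.2, inv_mul_cancel_left]
    · have : ¬ (z : Δ) • f j = f i := fun h => hij (f.injective (h ▸ hz.symm)).symm
      simp [mat, dif_neg this, Matrix.diagonal_apply_ne _ hij]
  let ρ' : Δ →* Matrix (Fin (Nat.card (Δ ⧸ N))) (Fin (Nat.card (Δ ⧸ N))) ℂ :=
    { toFun := mat
      map_one' := by
        have := hdiag 1
        simpa using this
      map_mul' := hmul }
  exact ⟨_, ρ'.toHomUnits, Nat.card_pos, fun z => Units.ext (hdiag z)⟩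

/-- A stem extension along which every projective representation lifts is a Schur cover. -/
theorem exists_surjective_of_lift {Γ : Type w} [Group Γ] {σ : Γ →* Q} (hσ : IsStemExtension σ)
    (hlift : ∀ (n : ℕ) (γ : Q →* (GL (Fin n) ℂ ⧸ center (GL (Fin n) ℂ))),
      ∃ ρ : Γ →* GL (Fin n) ℂ, (QuotientGroup.mk' (center (GL (Fin n) ℂ))).comp ρ = γ.comp σ)
    {Δ : Type x} [Group Δ] [Finite Δ] {τ : Δ →* Q} (hτ : IsStemExtension τ) :
    ∃ π : σ.ker →* τ.ker, Function.Surjective π := by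
  obtain ⟨ψs, hψs, hss, hms⟩ := exists_hopfLift_stem hσ
  obtain ⟨ψt, hψt, hts, hmt⟩ := exists_hopfLift_stem hτ
  let fs : schurMult Q →* σ.ker := (ψs.comp (schurMult Q).subtype).codRestrict σ.ker
    (fun z => hms ▸ Subgroup.mem_map_of_mem ψs z.2)
  let ft : schurMult Q →* τ.ker := (ψt.comp (schurMult Q).subtype).codRestrict τ.ker
    (fun z => hmt ▸ Subgroup.mem_map_of_mem ψt z.2)
  have hfs : Function.Surjective fs := fun y => by
    obtain ⟨w, hw, hw'⟩ := (hms.symm ▸ y.2 : (y : Γ) ∈ (schurMult Q).map ψs)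
    exact ⟨⟨w, hw⟩, Subtype.ext hw'⟩
  have hft : Function.Surjective ft := fun y => by
    obtain ⟨w, hw, hw'⟩ := (hmt.symm ▸ y.2 : (y : Δ) ∈ (schurMult Q).map ψt)
    exact ⟨⟨w, hw⟩, Subtype.ext hw'⟩
  have hker : fs.ker ≤ ft.ker := by
    intro z hz
    by_contra hne
    letI : CommGroup τ.ker :=
      { (inferInstance : Group τ.ker) with
        mul_comm := fun a b => Subtype.ext (Subgroup.mem_center_iff.1 (hτ.2.1 b.2) (a : Δ)) }
    haveI : HasEnoughRootsOfUnity ℂ (Monoid.exponent τ.ker) :=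
      haveI : NeZero (Monoid.exponent τ.ker) := ⟨Monoid.exponent_ne_zero_of_finite⟩
      inferInstance
    obtain ⟨χ, hχ⟩ := CommGroup.exists_apply_ne_one_of_hasEnoughRootsOfUnity τ.ker ℂ
      (a := ft z) hne
    obtain ⟨n, ρ, hn, hρ⟩ := exists_central_rep τ.ker hτ.2.1 χ
    let mk := QuotientGroup.mk' (center (GL (Fin n) ℂ))
    have hkl : τ.ker ≤ (mk.comp ρ).ker := fun y hy => by
      rw [MonoidHom.mem_ker, MonoidHom.comp_apply]
      refine (QuotientGroup.eq_one_iff _).2 ?_
      rw [hρ ⟨y, hy⟩, Matrix.GeneralLinearGroup.center_eq_range_scalar]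
      exact ⟨_, rfl⟩
    let γ := τ.liftOfSurjective hτ.1 ⟨mk.comp ρ, hkl⟩
    obtain ⟨ρ', hρ'⟩ := hlift n γ
    have heq : ∀ x, mk (ρ (ψt x)) = mk (ρ' (ψs x)) := fun x => by
      have h2 : mk (ρ' (ψs x)) = γ (hopfPi Q x) := by
        rw [← hψs]; exact DFunLike.congr_fun hρ' (ψs x)
      have h1 : γ (hopfPi Q x) = mk (ρ (ψt x)) := by
        rw [← hψt, MonoidHom.comp_apply, MonoidHom.liftOfRightInverse_comp_apply]
        rfl
      rw [h2, h1]
    have hcen : ∀ x, ρ (ψt x) * (ρ' (ψs x))⁻¹ ∈ center (GL (Fin n) ℂ) := fun x => by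
      rw [← QuotientGroup.eq_one_iff]
      show mk _ = 1
      rw [map_mul, map_inv, heq, mul_inv_cancel]
    let d : HopfExt Q →* center (GL (Fin n) ℂ) :=
      { toFun := fun x => ⟨_, hcen x⟩
        map_one' := by ext1; simp
        map_mul' := fun a b => by
          apply Subtype.ext
          have hb := Subgroup.mem_center_iff.1 (hcen b) ((ρ' (ψs a))⁻¹)
          calc ρ (ψt (a * b)) * (ρ' (ψs (a * b)))⁻¹ =
              ρ (ψt a) * ((ρ (ψt b) * (ρ' (ψs b))⁻¹) * (ρ' (ψs a))⁻¹) := by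
                simp only [map_mul]; group
            _ = ρ (ψt a) * ((ρ' (ψs a))⁻¹ * (ρ (ψt b) * (ρ' (ψs b))⁻¹)) := by rw [hb]
            _ = _ := (mul_assoc _ _ _).symm }
    have hd : commutator (HopfExt Q) ≤ d.ker := by
      rw [commutator_def, Subgroup.commutator_le]
      intro a _ b _
      rw [MonoidHom.mem_ker, map_commutatorElement, commutatorElement_eq_one_iff_mul_comm]
      exact Subtype.ext (Subgroup.mem_center_iff.1 (d b).2 _)
    have h1 : ρ (ψt z) * (ρ' (ψs z))⁻¹ = 1 := congrArg Subtype.val (hd z.2.2)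
    have h2 : ψs (z : HopfExt Q) = 1 := congrArg Subtype.val hz
    rw [h2, map_one, inv_one, mul_one] at h1
    refine hχ (Units.ext ?_)
    have h3 := hρ (ft z)
    change ρ (ψt z) = _ at h3
    rw [h1] at h3
    have h4 := congrArg (fun M : GL (Fin n) ℂ => (M : Matrix (Fin n) (Fin n) ℂ) ⟨0, hn⟩ ⟨0, hn⟩) h3
    simpa using h4.symm
  refine ⟨fs.liftOfSurjective hfs ⟨ft, hker⟩, fun y => ?_⟩
  obtain ⟨m, rfl⟩ := hft y
  exact ⟨fs m, MonoidHom.liftOfRightInverse_comp_apply fs _ _ ⟨ft, hker⟩ m⟩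

end Cfsg.Agent.SchurMul
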