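import Cfsg.Agent.SchurMul.Cover
import Cfsg.Agent.SchurMul.BilExt
import Mathlib.LinearAlgebra.TensorProduct.Finiteness
import Mathlib.RingTheory.TensorProduct.Finite

/-!
# The Schur multiplier of a direct product
-/

set_option autoImplicit false

namespace Cfsg.Agent.SchurMul

universe u v w

open Subgroup CentralExt
open scoped commutatorElement TensorProduct

/-- Commutator with a product on the left, when the inner value is central. -/
theorem commutator_mul_left {W : Type w} [Group W] {a a' c : W} (h : ⁅a', c⁆ ∈ center W) :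
    ⁅a * a', c⁆ = ⁅a', c⁆ * ⁅a, c⁆ := by
  calc ⁅a * a', c⁆ = a * ⁅a', c⁆ * (c * a⁻¹ * c⁻¹) := by
        rw [commutatorElement_def, commutatorElement_def]; group
    _ = ⁅a', c⁆ * a * (c * a⁻¹ * c⁻¹) := by rw [Subgroup.mem_center_iff.1 h a]
    _ = _ := by rw [commutatorElement_def a c]; group

theorem commutator_mul_right {W : Type w} [Group W] {a c c' : W} (h : ⁅a, c'⁆ ∈ center W) :
    ⁅a, c * c'⁆ = ⁅a, c⁆ * ⁅a, c'⁆ := by
  calc ⁅a, c * c'⁆ = a * c * a⁻¹ * (⁅a, c'⁆ * c⁻¹) := by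
        rw [commutatorElement_def, commutatorElement_def]; group
    _ = a * c * a⁻¹ * (c⁻¹ * ⁅a, c'⁆) := by rw [Subgroup.mem_center_iff.1 h c⁻¹]
    _ = _ := by rw [commutatorElement_def a c]; group

/-- The kernel part of the commutator subgroup of a central extension is an image of the
multiplier. -/
theorem exists_map_schurMult {Q : Type u} [Group Q] {V : Type w} [Group V] (ρ : V →* Q)
    (hρ : Function.Surjective ρ) (hc : ρ.ker ≤ center V) :
    ∃ f : schurMult Q →* V, ∀ x ∈ ρ.ker, x ∈ commutator V → x ∈ f.range := by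
  obtain ⟨ψ, hψ⟩ := exists_hopfLift ρ hρ hc
  refine ⟨ψ.comp (schurMult Q).subtype, fun x hx hx' => ?_⟩
  have hsplit : ∀ v : V, ∃ a, ∃ z ∈ center V, v = ψ a * z := fun v => by
    obtain ⟨a, ha⟩ := hopfPi_surjective Q (ρ v)
    refine ⟨a, (ψ a)⁻¹ * v, hc ?_, by group⟩
    rw [MonoidHom.mem_ker, map_mul, map_inv, ← MonoidHom.comp_apply, hψ, ha, inv_mul_cancel]
  have hle : commutator V ≤ (commutator (HopfExt Q)).map ψ := by
    rw [commutator_def, Subgroup.commutator_le]
    intro a _ b _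
    obtain ⟨a', z, hz, rfl⟩ := hsplit a
    obtain ⟨b', y, hy, rfl⟩ := hsplit b
    have h1 : ∀ g : V, ⁅z, g⁆ = 1 := fun g =>
      commutatorElement_eq_one_iff_mul_comm.2 (Subgroup.mem_center_iff.1 hz g).symm
    have h2 : ∀ g : V, ⁅g, y⁆ = 1 := fun g =>
      commutatorElement_eq_one_iff_mul_comm.2 (Subgroup.mem_center_iff.1 hy g)
    rw [commutator_mul_left (h1 _ ▸ one_mem _), h1, one_mul,
      commutator_mul_right (h2 _ ▸ one_mem _), h2, mul_one, ← map_commutatorElement]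
    exact Subgroup.mem_map_of_mem ψ (commutator_mem_commutator (mem_top _) (mem_top _))
  obtain ⟨e, he, rfl⟩ := hle hx'
  refine ⟨⟨e, ?_, he⟩, rfl⟩
  rw [← hψ]
  exact hx

variable (Q₁ : Type u) (Q₂ : Type v) [Group Q₁] [Group Q₂]

/-- The tensor product of the abelianisations, written multiplicatively. -/
abbrev AbTensor : Type max u v :=
  Multiplicative (TensorProduct ℤ (Additive (Abelianization Q₁)) (Additive (Abelianization Q₂)))

theorem finite_abTensor [Finite Q₁] [Finite Q₂] : Finite (AbTensor Q₁ Q₂) := by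
  have h1 : Finite (Additive (Abelianization Q₁)) :=
    Finite.of_surjective (fun q => Additive.ofMul (Abelianization.of q))
      (Additive.ofMul.surjective.comp (QuotientGroup.mk_surjective))
  have h2 : Finite (Additive (Abelianization Q₂)) :=
    Finite.of_surjective (fun q => Additive.ofMul (Abelianization.of q))
      (Additive.ofMul.surjective.comp (QuotientGroup.mk_surjective))
  haveI : Module.Finite ℤ (TensorProduct ℤ (Additive (Abelianization Q₁))
      (Additive (Abelianization Q₂))) := Module.Finite.tensorProduct ℤ _ _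
  have hS : Finite (TensorProduct ℤ (Additive (Abelianization Q₁))
      (Additive (Abelianization Q₂))) := by
    refine Module.finite_of_fg_torsion _ (fun x =>
      ⟨⟨(Nat.card (Additive (Abelianization Q₁)) : ℤ),
        mem_nonZeroDivisors_of_ne_zero (by exact_mod_cast Nat.card_pos.ne')⟩, ?_⟩)
    show (Nat.card (Additive (Abelianization Q₁)) : ℤ) • x = 0
    induction x using TensorProduct.induction_on with
    | zero => exact smul_zero _
    | tmul a b =>
      rw [TensorProduct.smul_tmul', natCast_zsmul, card_nsmul_eq_zero', TensorProduct.zero_tmul]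
    | add x y hx hy => rw [smul_add, hx, hy, add_zero]
  exact hS

variable {Q₁ Q₂}

/-- The tensor of two elements. -/
def tens (a : Q₁) (b : Q₂) : AbTensor Q₁ Q₂ :=
  Multiplicative.ofAdd
    ((Additive.ofMul (Abelianization.of a)) ⊗ₜ[ℤ] (Additive.ofMul (Abelianization.of b)))

theorem tens_mul_left (a a' : Q₁) (b : Q₂) : tens (a * a') b = tens a b * tens a' b := by
  rw [tens, tens, tens, map_mul, ofMul_mul, TensorProduct.add_tmul, ofAdd_add]

theorem tens_mul_right (a : Q₁) (b b' : Q₂) : tens a (b * b') = tens a b * tens a b' := by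
  rw [tens, tens, tens, map_mul, ofMul_mul, TensorProduct.tmul_add, ofAdd_add]

theorem tens_one_left (b : Q₂) : tens (1 : Q₁) b = 1 := by
  rw [tens, map_one, ofMul_one, TensorProduct.zero_tmul, ofAdd_zero]

theorem tens_one_right (a : Q₁) : tens a (1 : Q₂) = 1 := by
  rw [tens, map_one, ofMul_one, TensorProduct.tmul_zero, ofAdd_zero]

/-- The product of two stem extensions twisted by the tensor pairing. -/
theorem exists_product_stem [Finite Q₁] [Finite Q₂] {W₁ : Type u} {W₂ : Type v}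
    [Group W₁] [Group W₂] [Finite W₁] [Finite W₂] {θ₁ : W₁ →* Q₁} {θ₂ : W₂ →* Q₂}
    (h₁ : IsStemExtension θ₁) (h₂ : IsStemExtension θ₂) :
    ∃ (W : Type max u v) (_ : Group W) (_ : Finite W) (σ : W →* Q₁ × Q₂), IsStemExtension σ ∧
      Nonempty (σ.ker ≃* θ₁.ker × θ₂.ker × AbTensor Q₁ Q₂) := by
  haveI := finite_abTensor Q₁ Q₂
  let b : W₁ × W₂ →* W₁ × W₂ →* AbTensor Q₁ Q₂ :=
    { toFun := fun x =>
        { toFun := fun y => tens (θ₁ x.1) (θ₂ y.2)
          map_one' := by rw [Prod.snd_one, map_one, tens_one_right]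
          map_mul' := fun y y' => by rw [Prod.snd_mul, map_mul, tens_mul_right] }
      map_one' := by ext y; show tens (θ₁ (1 : W₁)) _ = 1; rw [map_one, tens_one_left]
      map_mul' := fun x x' => by
        ext y
        show tens (θ₁ (x * x').1) _ = _
        rw [Prod.fst_mul, map_mul, tens_mul_left]
        rfl }
  haveI : Finite (BilExt b) := BilExt.finite
  let σ : BilExt b →* Q₁ × Q₂ := (θ₁.prodMap θ₂).comp BilExt.proj
  have hk : ∀ {u : BilExt b}, u ∈ σ.ker ↔ θ₁ u.pt.1 = 1 ∧ θ₂ u.pt.2 = 1 := by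
    intro u
    exact Prod.ext_iff
  have hb1 : ∀ {u : BilExt b}, u ∈ σ.ker → ∀ y, b u.pt y = 1 ∧ b y u.pt = 1 := fun hu y =>
    ⟨by show tens (θ₁ _) _ = 1; rw [(hk.1 hu).1, tens_one_left],
      by show tens _ (θ₂ _) = 1; rw [(hk.1 hu).2, tens_one_right]⟩
  have hι : ∀ t : AbTensor Q₁ Q₂, (BilExt.ι t : BilExt b) ∈ commutator (BilExt b) := by
    suffices h : ∀ x, (BilExt.ι (Multiplicative.ofAdd x) : BilExt b) ∈ commutator (BilExt b) from
      fun t => h t.toAdd
    intro x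
    induction x using TensorProduct.induction_on with
    | zero => rw [ofAdd_zero, map_one]; exact one_mem _
    | tmul a c =>
      obtain ⟨a', ha⟩ := QuotientGroup.mk_surjective (Additive.toMul a)
      obtain ⟨c', hc⟩ := QuotientGroup.mk_surjective (Additive.toMul c)
      obtain ⟨x₁, rfl⟩ := h₁.1 a'
      obtain ⟨y₂, rfl⟩ := h₂.1 c'
      have hcomm : Commute ((x₁, 1) : W₁ × W₂) ((1, y₂) : W₁ × W₂) := by
        simp [Commute, SemiconjBy]
      have hval : b (x₁, 1) (1, y₂) * (b (1, y₂) (x₁, 1))⁻¹ =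
          Multiplicative.ofAdd (a ⊗ₜ[ℤ] c) := by
        show tens (θ₁ x₁) (θ₂ y₂) * (tens (θ₁ 1) (θ₂ 1))⁻¹ = _
        rw [map_one θ₁, tens_one_left, inv_one, mul_one, tens]
        congr 1
        congr 1
      exact hval ▸ BilExt.commutator_of_commute hcomm
    | add x y hx hy => rw [ofAdd_add, map_mul]; exact mul_mem hx hy
  refine ⟨BilExt b, inferInstance, inferInstance, σ, ⟨?_, ?_, ?_⟩, ?_⟩
  · exact (h₁.1.prodMap h₂.1).comp BilExt.proj_surjective
  · intro u hu
    rw [Subgroup.mem_center_iff]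
    intro v
    ext1
    · rw [BilExt.mul_z, BilExt.mul_z, (hb1 hu v.pt).1, (hb1 hu v.pt).2, mul_comm v.z]
    · rw [BilExt.mul_pt, BilExt.mul_pt]
      exact Prod.ext (Subgroup.mem_center_iff.1 (h₁.2.1 (hk.1 hu).1) v.pt.1)
        (Subgroup.mem_center_iff.1 (h₂.2.1 (hk.1 hu).2) v.pt.2)
  · intro u hu
    have hpt : u.pt ∈ (commutator (BilExt b)).map BilExt.proj := by
      rw [map_commutator_top _ BilExt.proj_surjective, commutator_def, ← Subgroup.top_prod_top,
        Subgroup.commutator_prod_prod, ← commutator_def, ← commutator_def]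
      exact ⟨h₁.2.2 (hk.1 hu).1, h₂.2.2 (hk.1 hu).2⟩
    obtain ⟨c, hc, hcu⟩ := hpt
    rw [show u = (u * c⁻¹) * c by group]
    refine mul_mem ?_ hc
    have h3 : u * c⁻¹ ∈ (BilExt.proj : BilExt b →* W₁ × W₂).ker := by
      rw [MonoidHom.mem_ker, map_mul, map_inv, hcu, BilExt.proj_apply, mul_inv_cancel]
    rw [BilExt.mem_ker_proj.1 h3]
    exact hι _
  · exact ⟨
      { toFun := fun u => (⟨u.1.pt.1, (hk.1 u.2).1⟩, ⟨u.1.pt.2, (hk.1 u.2).2⟩, u.1.z)
        invFun := fun t => ⟨⟨t.2.2, ((t.1 : W₁), (t.2.1 : W₂))⟩, hk.2 ⟨t.1.2, t.2.1.2⟩⟩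
        left_inv := fun _ => rfl
        right_inv := fun _ => rfl
        map_mul' := fun u v => by
          refine Prod.ext rfl (Prod.ext rfl ?_)
          show (u.1 * v.1).z = u.1.z * v.1.z
          rw [BilExt.mul_z, (hb1 u.2 _).1, mul_one] }⟩

/-- The kernel of a stem extension of a product is bounded by the two multipliers and the tensor
product. -/
theorem card_ker_le_product [Finite Q₁] [Finite Q₂] {W : Type w} [Group W] {σ : W →* Q₁ × Q₂}
    (hσ : IsStemExtension σ) :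
    Nat.card σ.ker ≤
      Nat.card (schurMult Q₁) * (Nat.card (schurMult Q₂) * Nat.card (AbTensor Q₁ Q₂)) := by
  haveI := finite_abTensor Q₁ Q₂
  letI : CommGroup σ.ker :=
    { (inferInstance : Group σ.ker) with
      mul_comm := fun a b => Subtype.ext (Subgroup.mem_center_iff.1 (hσ.2.1 b.2) (a : W)) }
  let W₁ : Subgroup W := ((MonoidHom.snd Q₁ Q₂).comp σ).ker
  let W₂ : Subgroup W := ((MonoidHom.fst Q₁ Q₂).comp σ).ker
  let σ₁ : W₁ →* Q₁ := ((MonoidHom.fst Q₁ Q₂).comp σ).comp W₁.subtype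
  let σ₂ : W₂ →* Q₂ := ((MonoidHom.snd Q₁ Q₂).comp σ).comp W₂.subtype
  have hs₁ : Function.Surjective σ₁ := fun q => by
    obtain ⟨x, hx⟩ := hσ.1 (q, 1)
    exact ⟨⟨x, show (σ x).2 = 1 by rw [hx]⟩, show (σ x).1 = q by rw [hx]⟩
  have hs₂ : Function.Surjective σ₂ := fun q => by
    obtain ⟨x, hx⟩ := hσ.1 (1, q)
    exact ⟨⟨x, show (σ x).1 = 1 by rw [hx]⟩, show (σ x).2 = q by rw [hx]⟩
  have hker₁ : ∀ a : W₁, a ∈ σ₁.ker → (a : W) ∈ σ.ker := fun a ha => Prod.ext ha a.2
  have hker₂ : ∀ c : W₂, c ∈ σ₂.ker → (c : W) ∈ σ.ker := fun c hc => Prod.ext c.2 hc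
  have hc₁ : σ₁.ker ≤ center W₁ := fun a ha => Subgroup.mem_center_iff.2 fun g =>
    Subtype.ext (Subgroup.mem_center_iff.1 (hσ.2.1 (hker₁ a ha)) g)
  have hc₂ : σ₂.ker ≤ center W₂ := fun a ha => Subgroup.mem_center_iff.2 fun g =>
    Subtype.ext (Subgroup.mem_center_iff.1 (hσ.2.1 (hker₂ a ha)) g)
  have hpair : ∀ (a : W₁) (c : W₂), ⁅(a : W), (c : W)⁆ ∈ σ.ker := fun a c => by
    rw [MonoidHom.mem_ker, map_commutatorElement, commutatorElement_eq_one_iff_mul_comm]
    have ha : (σ (a : W)).2 = 1 := a.2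
    have hc : (σ (c : W)).1 = 1 := c.2
    ext
    · simp [hc]
    · simp [ha]
  let β₀ : W₁ →* W₂ →* σ.ker :=
    { toFun := fun a =>
        { toFun := fun c => ⟨_, hpair a c⟩
          map_one' := Subtype.ext (commutatorElement_one_right _)
          map_mul' := fun c c' => Subtype.ext (commutator_mul_right (hσ.2.1 (hpair a c'))) }
      map_one' := MonoidHom.ext fun c => Subtype.ext (commutatorElement_one_left _)
      map_mul' := fun a a' => MonoidHom.ext fun c => by
        rw [MonoidHom.mul_apply, mul_comm]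
        exact Subtype.ext (commutator_mul_left (hσ.2.1 (hpair a' c))) }
  have hk₁ : σ₁.ker ≤ β₀.ker := fun a ha => MonoidHom.ext fun c => Subtype.ext
    (commutatorElement_eq_one_iff_mul_comm.2
      (Subgroup.mem_center_iff.1 (hσ.2.1 (hker₁ a ha)) c).symm)
  let β₁ : W₂ →* Q₁ →* σ.ker := (σ₁.liftOfSurjective hs₁ ⟨β₀, hk₁⟩).flip
  have hk₂ : σ₂.ker ≤ β₁.ker := fun c hc => MonoidHom.ext fun q => by
    obtain ⟨a, rfl⟩ := hs₁ q
    show (σ₁.liftOfSurjective hs₁ ⟨β₀, hk₁⟩) (σ₁ a) c = 1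
    rw [MonoidHom.liftOfRightInverse_comp_apply]
    exact Subtype.ext (commutatorElement_eq_one_iff_mul_comm.2
      (Subgroup.mem_center_iff.1 (hσ.2.1 (hker₂ c hc)) a))
  let β₂ : Q₂ →* Q₁ →* σ.ker := σ₂.liftOfSurjective hs₂ ⟨β₁, hk₂⟩
  let β₃ : Abelianization Q₁ →* Abelianization Q₂ →* σ.ker :=
    (Abelianization.lift (Abelianization.lift β₂).flip)
  let β₄ : Additive (Abelianization Q₁) →+ Additive (Abelianization Q₂) →+ Additive σ.ker :=
    AddMonoidHom.mk' (fun a => MonoidHom.toAdditive (β₃ (Additive.toMul a))) (fun a a' => by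
      ext c
      simp)
  let T := TensorProduct.liftAddHom (R := ℤ) β₄
    (fun r m n => by rw [map_zsmul, map_zsmul]; rfl)
  let t : AbTensor Q₁ Q₂ →* σ.ker := MonoidHom.toAdditive.symm T
  have ht : ∀ (a : W₁) (c : W₂), t (tens (σ₁ a) (σ₂ c)) = ⟨_, hpair a c⟩ := fun a c => by
    show β₃ (Abelianization.of (σ₁ a)) (Abelianization.of (σ₂ c)) = _
    simp only [β₃, Abelianization.lift_apply_of, MonoidHom.flip_apply, β₂,
      MonoidHom.liftOfRightInverse_comp_apply, β₁]
    rfl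
  obtain ⟨f₁, hf₁⟩ := exists_map_schurMult σ₁ hs₁ hc₁
  obtain ⟨f₂, hf₂⟩ := exists_map_schurMult σ₂ hs₂ hc₂
  -- every element of the commutator subgroup decomposes
  let C₁ : Subgroup W := (commutator W₁).map W₁.subtype
  let C₂ : Subgroup W := (commutator W₂).map W₂.subtype
  let P : Subgroup W := t.range.map σ.ker.subtype
  have hP : P ≤ center W := by
    rintro _ ⟨y, -, rfl⟩
    exact hσ.2.1 y.2
  have hC₂c : ∀ (a : W₁), ∀ x ∈ C₂, (a : W) * x = x * a := by
    intro a x hx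
    obtain ⟨x', hx', rfl⟩ := hx
    have hk : (β₀ a).ker ≥ commutator W₂ := by
      rw [ge_iff_le, commutator_def, Subgroup.commutator_le]
      intro c _ c' _
      rw [MonoidHom.mem_ker, map_commutatorElement, commutatorElement_eq_one_iff_mul_comm]
      exact mul_comm _ _
    exact commutatorElement_eq_one_iff_mul_comm.1 (congrArg Subtype.val (hk hx'))
  have hPm : ∀ (a : W₁) (c : W₂), ⁅(a : W), (c : W)⁆ ∈ P := fun a c =>
    ⟨⟨_, hpair a c⟩, ⟨_, ht a c⟩, rfl⟩
  have hsplit : ∀ g : W, ∃ (a : W₁) (c : W₂), g = a * c := by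
    intro g
    obtain ⟨a, ha⟩ := hs₁ (σ g).1
    refine ⟨a, ⟨(a : W)⁻¹ * g, ?_⟩, by group⟩
    show (σ ((a : W)⁻¹ * g)).1 = 1
    rw [map_mul, map_inv, Prod.fst_mul, Prod.fst_inv, show (σ (a : W)).1 = (σ g).1 from ha,
      inv_mul_cancel]
  have hS : commutator W ≤ C₁ ⊔ C₂ ⊔ P := by
    rw [commutator_def, Subgroup.commutator_le]
    intro g _ g' _
    obtain ⟨a, c, rfl⟩ := hsplit g
    obtain ⟨a', c', rfl⟩ := hsplit g'
    have hcc : ⁅(c : W), (c' : W)⁆ ∈ C₂ :=
      ⟨⁅c, c'⁆, commutator_mem_commutator (mem_top _) (mem_top _), map_commutatorElement _ c c'⟩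
    have haa : ⁅(a : W), (a' : W)⁆ ∈ C₁ :=
      ⟨⁅a, a'⁆, commutator_mem_commutator (mem_top _) (mem_top _), map_commutatorElement _ a a'⟩
    have hca : ⁅(c : W), (a' : W)⁆ ∈ P := by
      rw [← commutatorElement_inv]
      exact inv_mem (hPm a' c)
    have hac := hPm a c'
    have key : ⁅(a : W) * c, (a' : W) * c'⁆ =
        (⁅(c : W), (a' : W)⁆ * ⁅(c : W), (c' : W)⁆) *
          (⁅(a : W), (a' : W)⁆ * ⁅(a : W), (c' : W)⁆) := by
      have e1 : ⁅(c : W), (a' : W) * c'⁆ = ⁅(c : W), (a' : W)⁆ * ⁅(c : W), (c' : W)⁆ := by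
        calc ⁅(c : W), (a' : W) * c'⁆ =
              ⁅(c : W), (a' : W)⁆ * (a' * ⁅(c : W), (c' : W)⁆ * (a' : W)⁻¹) := by
              rw [commutatorElement_def, commutatorElement_def, commutatorElement_def]; group
          _ = _ := by rw [hC₂c a' _ hcc, mul_inv_cancel_right]
      calc ⁅(a : W) * c, (a' : W) * c'⁆
          = a * ⁅(c : W), (a' : W) * c'⁆ * (a : W)⁻¹ * ⁅(a : W), (a' : W) * c'⁆ := by
            rw [commutatorElement_def, commutatorElement_def, commutatorElement_def]; group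
        _ = _ := by
          rw [e1, commutator_mul_right (hP hac), ← mul_assoc (a : W),
            Subgroup.mem_center_iff.1 (hP hca) a, mul_assoc _ (a : W), hC₂c a _ hcc]
          group
    rw [key]
    exact mul_mem (mul_mem (mem_sup_right hca) (mem_sup_left (mem_sup_right hcc)))
      (mul_mem (mem_sup_left (mem_sup_left haa)) (mem_sup_right hac))
  have hcover : ∀ z ∈ σ.ker, ∃ m₁ m₂ s,
      z = (f₁ m₁ : W) * (f₂ m₂ : W) * ((t s : σ.ker) : W) := by
    intro z hz
    haveI : P.Normal := ⟨fun n hn g => by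
      rwa [Subgroup.mem_center_iff.1 (hP hn) g, mul_inv_cancel_right]⟩
    obtain ⟨y, hy, p, hp, rfl⟩ := Subgroup.mem_sup_of_normal_right.1 (hS (hσ.2.2 hz))
    have hnorm : C₁ ≤ normalizer (C₂ : Set W) := by
      intro x hx
      obtain ⟨x', hx', rfl⟩ := hx
      rw [Subgroup.mem_normalizer_iff]
      intro h
      constructor
      · intro hh
        rw [show (W₁.subtype x') = (x' : W) from rfl, hC₂c x' h hh, mul_inv_cancel_right]
        exact hh
      · intro hh
        have h2 := hC₂c x'⁻¹ _ hh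
        simp only [Subgroup.coe_inv, Subgroup.coe_subtype] at h2 hh
        have h' : h = (x' : W) * h * (x' : W)⁻¹ := by
          calc h = (x' : W)⁻¹ * ((x' : W) * h * (x' : W)⁻¹) * x' := by group
            _ = _ := by rw [h2, inv_mul_cancel_right]
        exact h' ▸ hh
    rw [← SetLike.mem_coe, Subgroup.coe_mul_of_left_le_normalizer_right C₁ C₂ hnorm] at hy
    obtain ⟨x₁, ⟨x₁', hx₁, rfl⟩, x₂, ⟨x₂', hx₂, rfl⟩, rfl⟩ := hy
    obtain ⟨yp, ⟨s, rfl⟩, rfl⟩ := hp
    have hσz : σ (x₁' : W) * σ (x₂' : W) = 1 := by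
      have h := MonoidHom.mem_ker.1 hz
      rwa [map_mul, MonoidHom.mem_ker.1 (show (σ.ker.subtype (t s)) ∈ σ.ker from (t s).2), mul_one,
        map_mul] at h
    have h1 : x₁' ∈ σ₁.ker := by
      have h := congrArg Prod.fst hσz
      rwa [Prod.fst_mul, show (σ (x₂' : W)).1 = 1 from x₂'.2, mul_one] at h
    have h2 : x₂' ∈ σ₂.ker := by
      have h := congrArg Prod.snd hσz
      rwa [Prod.snd_mul, show (σ (x₁' : W)).2 = 1 from x₁'.2, one_mul] at h
    obtain ⟨m₁, hm₁⟩ := hf₁ _ h1 hx₁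
    obtain ⟨m₂, hm₂⟩ := hf₂ _ h2 hx₂
    exact ⟨m₁, m₂, s, by rw [hm₁, hm₂]; rfl⟩
  let S : Set W := Set.range fun t' : schurMult Q₁ × schurMult Q₂ × AbTensor Q₁ Q₂ =>
    (f₁ t'.1 : W) * (f₂ t'.2.1 : W) * ((t t'.2.2 : σ.ker) : W)
  have hsub : (σ.ker : Set W) ⊆ S := fun z hz => by
    obtain ⟨m₁, m₂, s, h⟩ := hcover z hz
    exact ⟨(m₁, m₂, s), h.symm⟩
  refine le_trans (Nat.card_mono (Set.finite_range _) hsub) ?_
  refine le_trans (Finite.card_range_le _) ?_
  rw [Nat.card_prod, Nat.card_prod]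

/-- The multiplier of a direct product. -/
theorem hasSchurMultiplier_prod [Finite Q₁] [Finite Q₂] {A : Type w} {B : Type w} [CommGroup A]
    [CommGroup B] (hA : HasSchurMultiplier Q₁ A) (hB : HasSchurMultiplier Q₂ B) :
    HasSchurMultiplier (Q₁ × Q₂) (A × B × AbTensor Q₁ Q₂) := by
  obtain ⟨i₁⟩ := nonempty_mulEquiv_schurMult hA
  obtain ⟨i₂⟩ := nonempty_mulEquiv_schurMult hB
  obtain ⟨W₁, _, _, θ₁, h₁, ⟨e₁⟩⟩ := exists_schurCover Q₁
  obtain ⟨W₂, _, _, θ₂, h₂, ⟨e₂⟩⟩ := exists_schurCover Q₂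
  obtain ⟨W, _, _, σ, hσ, ⟨e⟩⟩ := exists_product_stem h₁ h₂
  refine hasSchurMultiplier_of_stem hσ ?_
    (e.trans (MulEquiv.prodCongr (e₁.trans i₁.symm)
      (MulEquiv.prodCongr (e₂.trans i₂.symm) (MulEquiv.refl _))))
  obtain ⟨V, _, _, θ, hθ, ⟨e'⟩⟩ := exists_schurCover (Q₁ × Q₂)
  have h := card_ker_le_product hθ
  rw [Nat.card_congr e'.toEquiv] at h
  rw [Nat.card_congr e.toEquiv, Nat.card_prod, Nat.card_prod, Nat.card_congr e₁.toEquiv,
    Nat.card_congr e₂.toEquiv]
  exact h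

theorem subsingleton_abTensor [Finite Q₁] [Finite Q₂]
    (h : Nat.Coprime (Nat.card (Abelianization Q₁)) (Nat.card (Abelianization Q₂))) :
    Subsingleton (AbTensor Q₁ Q₂) := by
  refine ⟨fun x y => ?_⟩
  suffices hz : ∀ z : TensorProduct ℤ (Additive (Abelianization Q₁))
      (Additive (Abelianization Q₂)), z = 0 by
    exact Multiplicative.toAdd.injective ((hz _).trans (hz _).symm)
  intro z
  induction z using TensorProduct.induction_on with
  | zero => rfl
  | tmul a c =>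
    set m := Nat.card (Abelianization Q₁)
    set n := Nat.card (Abelianization Q₂)
    have ha : (m : ℤ) • a = 0 := by
      rw [natCast_zsmul]
      exact card_nsmul_eq_zero' (G := Additive (Abelianization Q₁))
    have hc : (n : ℤ) • c = 0 := by
      rw [natCast_zsmul]
      exact card_nsmul_eq_zero' (G := Additive (Abelianization Q₂))
    have h1 : (1 : ℤ) = m * Nat.gcdA m n + n * Nat.gcdB m n := by
      rw [← Nat.gcd_eq_gcd_ab, h.gcd_eq_one, Nat.cast_one]
    have h0 : (1 : ℤ) • (a ⊗ₜ[ℤ] c) = 0 := by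
      rw [h1, add_smul, mul_comm (m : ℤ), mul_comm (n : ℤ), mul_smul, mul_smul,
        TensorProduct.smul_tmul', ha, TensorProduct.zero_tmul, smul_zero,
        ← TensorProduct.tmul_smul (r := (n : ℤ)), hc, TensorProduct.tmul_zero, smul_zero, add_zero]
    rwa [one_smul] at h0
  | add x y hx hy => rw [hx, hy, add_zero]

end Cfsg.Agent.SchurMul
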