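import Cfsg.Agent.CentralExt.Bounds

/-!
# Multipliers of dihedral and dicyclic groups
-/

set_option autoImplicit false

namespace Cfsg.Agent.SchurMul

open Subgroup
open scoped commutatorElement

theorem dihedral_gen (n : ℕ) [NeZero n] :
    zpowers (DihedralGroup.r (1 : ZMod n)) ⊔ zpowers (DihedralGroup.sr (0 : ZMod n)) = ⊤ := by
  rw [eq_top_iff]
  have hr : ∀ i : ZMod n, DihedralGroup.r i ∈ zpowers (DihedralGroup.r (1 : ZMod n)) := fun i => by
    rw [← ZMod.natCast_zmod_val i, ← DihedralGroup.r_one_pow]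
    exact pow_mem (mem_zpowers _) _
  rintro (i | i) -
  · exact mem_sup_left (hr i)
  · have : DihedralGroup.sr i = DihedralGroup.sr 0 * DihedralGroup.r i := by simp
    rw [this]
    exact mul_mem (mem_sup_right (mem_zpowers _)) (mem_sup_left (hr i))

theorem quaternion_gen (n : ℕ) [NeZero n] :
    zpowers (QuaternionGroup.a (1 : ZMod (2 * n))) ⊔
      zpowers (QuaternionGroup.xa (0 : ZMod (2 * n))) = ⊤ := by
  rw [eq_top_iff]
  have hr : ∀ i : ZMod (2 * n),
      QuaternionGroup.a i ∈ zpowers (QuaternionGroup.a (1 : ZMod (2 * n))) := fun i => by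
    rw [← ZMod.natCast_zmod_val i, ← QuaternionGroup.a_one_pow]
    exact pow_mem (mem_zpowers _) _
  rintro (i | i) -
  · exact mem_sup_left (hr i)
  · have : QuaternionGroup.xa i = QuaternionGroup.xa 0 * QuaternionGroup.a i := by simp
    rw [this]
    exact mul_mem (mem_sup_right (mem_zpowers _)) (mem_sup_left (hr i))

theorem quaternion_multiplier (n : ℕ) [NeZero n] :
    HasCyclicSchurMultiplier (QuaternionGroup n) 1 := by
  refine CentralExt.hasCyclicSchurMultiplier_one_of fun Δ _ _ τ hτ => ?_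
  refine CentralExt.ker_eq_bot_of_quaternion hτ (a := QuaternionGroup.a 1)
    (b := QuaternionGroup.xa 0) QuaternionGroup.orderOf_a_one (quaternion_gen n) ?_ ?_
  · rw [QuaternionGroup.xa_sq, QuaternionGroup.a_one_pow]
  · rw [mul_inv_eq_iff_eq_mul]
    rw [show (QuaternionGroup.a (1 : ZMod (2 * n)))⁻¹ = QuaternionGroup.a (-1) from rfl]
    simp

theorem dihedral_ker_dvd {n : ℕ} [NeZero n] {W : Type} [Group W] [Finite W]
    {σ : W →* DihedralGroup n} (hσ : IsStemExtension σ) :
    IsCyclic σ.ker ∧ Nat.card σ.ker ∣ Nat.gcd 2 n := by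
  obtain ⟨a₀, ha⟩ := hσ.1 (DihedralGroup.r 1)
  obtain ⟨b₀, hb⟩ := hσ.1 (DihedralGroup.sr 0)
  have h := CentralExt.metacyclic_card_ker_dvd hσ a₀ b₀ (-1)
    (by rw [ha, hb]; exact dihedral_gen n)
    (by rw [ha, hb, zpow_neg_one, mul_inv_eq_iff_eq_mul,
          show (DihedralGroup.r (1 : ZMod n))⁻¹ = DihedralGroup.r (-1) from rfl]; simp)
  rw [ha, DihedralGroup.orderOf_r_one, show ((-1 : ℤ) - 1) = -2 by norm_num, Int.neg_gcd] at h
  exact h

/-- The dicyclic group maps onto the dihedral group of half the order. -/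
def quaternionToDihedral (n : ℕ) : QuaternionGroup n →* DihedralGroup n where
  toFun g := match g with
    | QuaternionGroup.a i => DihedralGroup.r (ZMod.castHom (Dvd.intro_left 2 rfl) (ZMod n) i)
    | QuaternionGroup.xa i => DihedralGroup.sr (ZMod.castHom (Dvd.intro_left 2 rfl) (ZMod n) i)
  map_one' := by
    show DihedralGroup.r (ZMod.castHom (Dvd.intro_left 2 rfl) (ZMod n) 0) = _
    simp only [map_zero]
    rfl
  map_mul' := by
    have h2 : ZMod.castHom (Dvd.intro_left 2 rfl) (ZMod n) ((n : ℕ) : ZMod (2 * n)) = 0 := by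
      simp
    rintro (i | i) (j | j)
    all_goals simp only [QuaternionGroup.a_mul_a, QuaternionGroup.a_mul_xa, QuaternionGroup.xa_mul_a,
      QuaternionGroup.xa_mul_xa, DihedralGroup.r_mul_r, DihedralGroup.r_mul_sr,
      DihedralGroup.sr_mul_r, DihedralGroup.sr_mul_sr, map_add, map_sub, h2, zero_add]

theorem quaternionToDihedral_surjective (n : ℕ) :
    Function.Surjective (quaternionToDihedral n) := by
  rintro (i | i)
  · obtain ⟨j, hj⟩ := ZMod.castHom_surjective (show n ∣ 2 * n from Dvd.intro_left 2 rfl) i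
    exact ⟨QuaternionGroup.a j, congrArg DihedralGroup.r hj⟩
  · obtain ⟨j, hj⟩ := ZMod.castHom_surjective (show n ∣ 2 * n from Dvd.intro_left 2 rfl) i
    exact ⟨QuaternionGroup.xa j, congrArg DihedralGroup.sr hj⟩

theorem quaternionToDihedral_ker (n : ℕ) [NeZero n] :
    Nat.card (quaternionToDihedral n).ker = 2 := by
  have h := Subgroup.card_eq_card_quotient_mul_card_subgroup (quaternionToDihedral n).ker
  rw [Nat.card_congr (QuotientGroup.quotientKerEquivOfSurjective _
    (quaternionToDihedral_surjective n)).toEquiv, DihedralGroup.nat_card,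
    Nat.card_eq_fintype_card (α := QuaternionGroup n), QuaternionGroup.card] at h
  have := NeZero.pos n
  apply Nat.eq_of_mul_eq_mul_left (show 0 < 2 * n by omega)
  omega

theorem quaternionToDihedral_stem (n : ℕ) [NeZero n] (hn : Even n) :
    IsStemExtension (quaternionToDihedral n) := by
  have hn0 := NeZero.pos n
  set z : QuaternionGroup n := QuaternionGroup.a (n : ZMod (2 * n)) with hz
  have hz1 : orderOf z = 2 := by
    rw [hz, ← QuaternionGroup.a_one_pow, orderOf_pow_of_dvd hn0.ne'
      (by rw [QuaternionGroup.orderOf_a_one]; exact dvd_mul_left n 2),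
      QuaternionGroup.orderOf_a_one, Nat.mul_div_cancel _ hn0]
  have hzk : z ∈ (quaternionToDihedral n).ker := by
    show DihedralGroup.r (ZMod.castHom (Dvd.intro_left 2 rfl) (ZMod n) ((n : ℕ) : ZMod (2 * n))) = _
    simp only [map_natCast, ZMod.natCast_self]
    rfl
  have hker : (quaternionToDihedral n).ker = zpowers z := by
    refine (Subgroup.eq_of_le_of_card_ge (by rwa [zpowers_le]) ?_).symm
    rw [Nat.card_zpowers, hz1, quaternionToDihedral_ker]
  refine ⟨quaternionToDihedral_surjective n, ?_, ?_⟩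
  · rw [hker, zpowers_le, Subgroup.mem_center_iff, hz]
    have hnn : -((n : ℕ) : ZMod (2 * n)) = (n : ℕ) := by
      rw [neg_eq_iff_add_eq_zero, ← Nat.cast_add, ← two_mul, ZMod.natCast_self]
    rintro (i | i) <;> simp [add_comm, sub_eq_add_neg, hnn]
  · rw [hker, zpowers_le, hz]
    obtain ⟨k, hk⟩ := hn
    have : QuaternionGroup.a ((n : ℕ) : ZMod (2 * n)) =
        ⁅(QuaternionGroup.a (k : ZMod (2 * n))), (QuaternionGroup.xa (0 : ZMod (2 * n)))⁆ := by
      rw [commutatorElement_def, eq_mul_inv_iff_mul_eq, eq_mul_inv_iff_mul_eq]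
      simp [hk]
    rw [this]
    exact Subgroup.commutator_mem_commutator (mem_top _) (mem_top _)

end Cfsg.Agent.SchurMul
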