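import Cfsg.Agent.CentralExt.Bounds
import Mathlib.GroupTheory.SemidirectProduct

/-!
# The multiplier of a metacyclic group
-/

set_option autoImplicit false

namespace Cfsg.Agent.SchurMul

universe u

open Subgroup CentralExt
open scoped commutatorElement

/-- Relators of the metacyclic group. -/
def metaRels (m n r t : ℕ) : Set (FreeGroup Bool) :=
  {FreeGroup.of true ^ m, (FreeGroup.of false) ^ n * (FreeGroup.of true ^ t)⁻¹,
    FreeGroup.of false * FreeGroup.of true * (FreeGroup.of false)⁻¹ * (FreeGroup.of true ^ r)⁻¹}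

/-- The lattice of relations of the normal abelian subgroup of the cover. -/
def metaLattice (m : ℕ) (α : ℤ) (k : ℕ) : AddSubgroup (ℤ × ℤ) where
  carrier := {v | ∃ i j : ℤ, v = ((m : ℤ) * i, -α * i + (k : ℤ) * j)}
  zero_mem' := ⟨0, 0, by ext <;> simp⟩
  add_mem' := by
    rintro _ _ ⟨i, j, rfl⟩ ⟨i', j', rfl⟩
    exact ⟨i + i', j + j', by ext <;> simp <;> ring⟩
  neg_mem' := by
    rintro _ ⟨i, j, rfl⟩
    exact ⟨-i, -j, by ext <;> simp <;> ring⟩

/-- A stem extension of the presented metacyclic group with kernel cyclic of order `k`, given the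
arithmetic of `(m, n, r, t, k)`. -/
theorem exists_metacyclic_stem (m n r t k : ℕ) (d α β u : ℤ) (hm : 0 < m) (hn : 0 < n) (hk : 0 < k)
    (hd : α * ((r : ℤ) - 1) + β * m = d) (hkd : (k : ℤ) ∣ d)
    (hpow : (⟨((r : ℤ) - 1) * ∑ i ∈ Finset.range n, (r : ℤ) ^ i,
      β * ∑ i ∈ Finset.range n, (r : ℤ) ^ i⟩ : ℤ × ℤ) ∈ metaLattice m α k)
    (hfix : (⟨(t : ℤ) * ((r : ℤ) - 1), (t : ℤ) * β⟩ : ℤ × ℤ) ∈ metaLattice m α k)
    (hu : (⟨u * ((r : ℤ) - 1), u * β - 1⟩ : ℤ × ℤ) ∈ metaLattice m α k) :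
    Finite (PresentedGroup (metaRels m n r t)) ∧
      orderOf (PresentedGroup.of true : PresentedGroup (metaRels m n r t)) = m ∧
      ∃ (W : Type) (_ : Group W) (_ : Finite W) (σ : W →* PresentedGroup (metaRels m n r t)),
        IsStemExtension σ ∧ Nonempty (σ.ker ≃* Multiplicative (ZMod k)) := by
  set L := metaLattice m α k with hL
  let N := Multiplicative ((ℤ × ℤ) ⧸ L)
  let mkN : ℤ × ℤ → N := fun v => Multiplicative.ofAdd (QuotientAddGroup.mk v)
  have mkN_eq : ∀ v v' : ℤ × ℤ, v' - v ∈ L → mkN v = mkN v' := fun v v' h => by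
    apply Multiplicative.toAdd.injective
    refine QuotientAddGroup.eq.2 ?_
    rwa [neg_add_eq_sub]
  have mkN_add : ∀ v v' : ℤ × ℤ, mkN (v + v') = mkN v * mkN v' := fun _ _ => rfl
  have mkN_surj : Function.Surjective mkN := fun x => by
    obtain ⟨v, hv⟩ := QuotientAddGroup.mk_surjective (Multiplicative.toAdd x)
    exact ⟨v, Multiplicative.toAdd.injective hv⟩
  -- the action
  let φ₀ : ℤ × ℤ →+ ℤ × ℤ :=
    { toFun := fun v => ((r : ℤ) * v.1, v.2 + β * v.1)
      map_zero' := by simp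
      map_add' := fun v v' => by ext <;> simp <;> ring }
  have hφ₀ : L ≤ L.comap φ₀ := by
    rintro _ ⟨i, j, rfl⟩
    obtain ⟨q, hq⟩ := hkd
    refine ⟨(r : ℤ) * i, j + q * i, ?_⟩
    ext
    · show (r : ℤ) * ((m : ℤ) * i) = _
      ring
    · show -α * i + (k : ℤ) * j + β * ((m : ℤ) * i) = _
      linear_combination i * hd + i * hq
  let φ₁ : (ℤ × ℤ) ⧸ L →+ (ℤ × ℤ) ⧸ L := QuotientAddGroup.map L L φ₀ hφ₀
  have hiter : ∀ (i : ℕ) (v : ℤ × ℤ), φ₀^[i] v =
      ((r : ℤ) ^ i * v.1, v.2 + β * (∑ j ∈ Finset.range i, (r : ℤ) ^ j) * v.1) := by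
    intro i
    induction i with
    | zero => intro v; simp
    | succ i ih =>
      intro v
      rw [Function.iterate_succ_apply', ih]
      ext
      · show (r : ℤ) * ((r : ℤ) ^ i * v.1) = _
        ring
      · show v.2 + β * (∑ j ∈ Finset.range i, (r : ℤ) ^ j) * v.1 + β * ((r : ℤ) ^ i * v.1) = _
        rw [Finset.sum_range_succ]
        ring
  have hφmk : ∀ (i : ℕ) (v : ℤ × ℤ),
      φ₁^[i] (QuotientAddGroup.mk v) = QuotientAddGroup.mk (φ₀^[i] v) := by
    intro i
    induction i with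
    | zero => intro v; rfl
    | succ i ih =>
      intro v
      rw [Function.iterate_succ_apply', Function.iterate_succ_apply', ih]
      rfl
  have hid : ∀ x, φ₁^[n] x = x := by
    intro x
    obtain ⟨v, rfl⟩ := QuotientAddGroup.mk_surjective x
    rw [hφmk, hiter]
    refine QuotientAddGroup.eq.2 ?_
    have h1 := L.zsmul_mem hpow (-v.1)
    convert h1 using 1
    ext
    · show -((r : ℤ) ^ n * v.1) + v.1 = -v.1 * (((r : ℤ) - 1) * ∑ i ∈ Finset.range n, (r : ℤ) ^ i)
      rw [mul_comm ((r : ℤ) - 1), geom_sum_mul]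
      ring
    · show -(v.2 + β * (∑ j ∈ Finset.range n, (r : ℤ) ^ j) * v.1) + v.2 =
        -v.1 * (β * ∑ i ∈ Finset.range n, (r : ℤ) ^ i)
      ring
  have hbij : Function.Bijective φ₁ := by
    obtain ⟨n', rfl⟩ := Nat.exists_eq_succ_of_ne_zero hn.ne'
    exact ⟨fun x y h => by rw [← hid x, ← hid y, Function.iterate_succ_apply,
        Function.iterate_succ_apply, h],
      fun x => ⟨φ₁^[n'] x, by rw [← Function.iterate_succ_apply' φ₁, hid]⟩⟩
  let ψ : MulAut N := AddEquiv.toMultiplicative (AddEquiv.ofBijective φ₁ hbij)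
  have hψ : ∀ v, ψ (mkN v) = mkN ((r : ℤ) * v.1, v.2 + β * v.1) := fun v => rfl
  have hψn : ψ ^ n = 1 := by
    refine MulEquiv.ext fun x => ?_
    have : ∀ (i : ℕ) (y : N), (ψ ^ i) y = Multiplicative.ofAdd (φ₁^[i] (Multiplicative.toAdd y)) := by
      intro i
      induction i with
      | zero => intro y; rfl
      | succ i ih =>
        intro y
        rw [pow_succ', MulAut.mul_apply, ih, Function.iterate_succ_apply']
        rfl
    rw [this, hid]
    rfl
  let φ : Multiplicative ℤ →* MulAut N := zpowersHom (MulAut N) ψ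
  let S := N ⋊[φ] Multiplicative ℤ
  let bS : S := SemidirectProduct.inr (Multiplicative.ofAdd (1 : ℤ))
  have hbS : ∀ x : N, bS * SemidirectProduct.inl x * bS⁻¹ = SemidirectProduct.inl (ψ x) := by
    intro x
    rw [← map_inv, ← SemidirectProduct.inl_aut]
    simp [φ]
  let e : S := SemidirectProduct.inl (mkN (-(t : ℤ), 0)) * SemidirectProduct.inr
    (Multiplicative.ofAdd (n : ℤ))
  have hφn : φ (Multiplicative.ofAdd (n : ℤ)) = 1 := by
    simp [φ, hψn]
  have htfix : ψ (mkN (-(t : ℤ), 0)) = mkN (-(t : ℤ), 0) := by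
    rw [hψ]
    refine mkN_eq _ _ ?_
    convert hfix using 1
    ext <;> simp <;> ring
  have hψfix : ∀ g, φ g (mkN (-(t : ℤ), 0)) = mkN (-(t : ℤ), 0) := by
    have hmem : ψ ∈ MulAction.stabilizer (MulAut N) (mkN (-(t : ℤ), 0)) := htfix
    intro g
    exact zpow_mem hmem _
  have he : e ∈ center S := by
    rw [Subgroup.mem_center_iff]
    intro g
    ext
    · show g.left * φ g.right (mkN (-(t : ℤ), 0) * φ 1 1) = mkN (-(t : ℤ), 0) * φ 1 1 *
        φ (1 * Multiplicative.ofAdd (n : ℤ)) g.left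
      rw [one_mul, hφn, map_one φ, MulAut.one_apply, mul_one, hψfix, MulAut.one_apply, mul_comm]
    · exact congrArg Multiplicative.toAdd (mul_comm g.right e.right)
  haveI : (zpowers e).Normal :=
    ⟨fun x hx g => by
      rwa [Subgroup.mem_center_iff.1 ((zpowers_le.2 he) hx) g, mul_inv_cancel_right]⟩
  let Γ := S ⧸ zpowers e
  let q : S →* Γ := QuotientGroup.mk' (zpowers e)
  let ι : N →* Γ := q.comp SemidirectProduct.inl
  have hι : Function.Injective ι := by
    rw [← MonoidHom.ker_eq_bot_iff, eq_bot_iff]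
    intro x hx
    obtain ⟨i, hi⟩ := (QuotientGroup.eq_one_iff _).1 hx
    have h2 := congrArg SemidirectProduct.right hi
    simp only [SemidirectProduct.right_inl] at h2
    change SemidirectProduct.rightHom (e ^ i) = 1 at h2
    rw [map_zpow] at h2
    have h5 : SemidirectProduct.rightHom e = Multiplicative.ofAdd (n : ℤ) := one_mul _
    rw [h5, ← ofAdd_zsmul] at h2
    have h4 : i * (n : ℤ) = 0 := congrArg Multiplicative.toAdd h2
    obtain rfl : i = 0 := (mul_eq_zero.1 h4).resolve_right (by exact_mod_cast hn.ne')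
    change e ^ (0 : ℤ) = _ at hi
    rw [zpow_zero] at hi
    exact Subgroup.mem_bot.2 (SemidirectProduct.inl_injective (by rw [← hi, map_one]))
  set A : Γ := ι (mkN (1, 0)) with hA
  set B : Γ := q bS with hB
  set w : Γ := ι (mkN (0, 1)) with hw
  have hmk : ∀ x y : ℤ, ι (mkN (x, y)) = A ^ x * w ^ y := by
    intro x y
    rw [hA, hw, ← map_zpow ι, ← map_zpow ι, ← map_mul ι]
    refine congrArg ι (Multiplicative.toAdd.injective ?_)
    rw [toAdd_mul, toAdd_zpow, toAdd_zpow]
    show (QuotientAddGroup.mk (x, y) : (ℤ × ℤ) ⧸ L) =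
      x • (QuotientAddGroup.mk ((1 : ℤ), (0 : ℤ)) : (ℤ × ℤ) ⧸ L) +
        y • (QuotientAddGroup.mk ((0 : ℤ), (1 : ℤ)) : (ℤ × ℤ) ⧸ L)
    rw [← QuotientAddGroup.mk_zsmul, ← QuotientAddGroup.mk_zsmul, ← QuotientAddGroup.mk_add]
    congr 1
    ext <;> simp
  have hBA : B * A * B⁻¹ = A ^ (r : ℤ) * w ^ β := by
    rw [← hmk]
    show q bS * q (SemidirectProduct.inl (mkN (1, 0))) * (q bS)⁻¹ = _
    rw [← map_inv, ← map_mul, ← map_mul, hbS, hψ]
    simp only [mul_one, zero_add]
    rfl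
  have hwc : w ∈ center Γ := by
    rw [Subgroup.mem_center_iff]
    have hall : ∀ s : S, s * SemidirectProduct.inl (mkN (0, 1)) =
        SemidirectProduct.inl (mkN (0, 1)) * s := by
      have hmem : ψ ∈ MulAction.stabilizer (MulAut N) (mkN (0, 1)) := by
        show ψ (mkN (0, 1)) = _
        rw [hψ]
        simp
      intro s
      ext
      · show s.left * φ s.right (mkN (0, 1)) = mkN (0, 1) * φ 1 s.left
        rw [show φ s.right (mkN (0, 1)) = mkN (0, 1) from zpow_mem hmem _, map_one φ,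
          MulAut.one_apply, mul_comm]
      · show s.right * 1 = 1 * s.right
        rw [mul_one, one_mul]
    intro g
    obtain ⟨s, rfl⟩ := QuotientGroup.mk'_surjective _ g
    show q s * q _ = q _ * q s
    rw [← map_mul, ← map_mul, hall]
  have hBn : B ^ n = A ^ t := by
    have h1 : q e = 1 := (QuotientGroup.eq_one_iff _).2 (mem_zpowers e)
    have h2 : q (SemidirectProduct.inr (Multiplicative.ofAdd (n : ℤ))) = B ^ n := by
      rw [hB, ← map_pow, ← map_pow, ← ofAdd_nsmul]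
      simp
    have h3 : ι (mkN (-(t : ℤ), 0)) * B ^ n = 1 := by
      rw [← h2]
      exact (map_mul q _ _).symm.trans h1
    rw [hmk, zpow_neg, zpow_natCast, zpow_zero, mul_one, inv_mul_eq_one] at h3
    exact h3.symm
  have hgenN : ι.range ⊔ zpowers B = ⊤ := by
    rw [eq_top_iff]
    intro g _
    obtain ⟨s, rfl⟩ := QuotientGroup.mk'_surjective _ g
    rw [← SemidirectProduct.inl_left_mul_inr_right s, map_mul]
    refine mul_mem (mem_sup_left ⟨s.left, rfl⟩) (mem_sup_right ⟨s.right.toAdd, ?_⟩)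
    show B ^ s.right.toAdd = q _
    rw [hB, ← map_zpow, ← map_zpow, ← ofAdd_zsmul]
    simp
  -- order of `w`
  have hL0 : ∀ y : ℤ, ((0 : ℤ), y) ∈ L ↔ (k : ℤ) ∣ y := by
    intro y
    constructor
    · rintro ⟨i, j, h⟩
      simp only [Prod.mk.injEq] at h
      obtain ⟨h1, h2⟩ := h
      have hi : i = 0 := by
        rcases mul_eq_zero.1 h1.symm with h | h
        · omega
        · exact h
      subst hi
      exact ⟨j, by rw [h2]; ring⟩
    · rintro ⟨j, rfl⟩
      exact ⟨0, j, by simp⟩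
  have hmkN1 : ∀ v, mkN v = 1 ↔ v ∈ L := fun v => by
    constructor
    · intro h
      exact (QuotientAddGroup.eq_zero_iff v).1 (congrArg Multiplicative.toAdd h)
    · intro h
      exact Multiplicative.toAdd.injective ((QuotientAddGroup.eq_zero_iff v).2 h)
  have hwk : orderOf w = k := by
    have hz : ∀ y : ℕ, w ^ y = 1 ↔ k ∣ y := by
      intro y
      rw [show w ^ y = ι (mkN (0, (y : ℤ))) by rw [hmk]; simp,
        ← map_one ι, hι.eq_iff, hmkN1, hL0, Int.natCast_dvd_natCast]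
    apply Nat.dvd_antisymm
    · rw [orderOf_dvd_iff_pow_eq_one, hz]
    · rw [← hz, pow_orderOf_eq_one]
  -- the two maps
  haveI : (zpowers w).Normal := ⟨fun x hx g => by
    rwa [Subgroup.mem_center_iff.1 ((zpowers_le.2 hwc) hx) g, mul_inv_cancel_right]⟩
  let p : Γ →* Γ ⧸ zpowers w := QuotientGroup.mk' (zpowers w)
  have hpw : p w = 1 := (QuotientGroup.eq_one_iff _).2 (mem_zpowers w)
  have hAm : A ^ (m : ℤ) = w ^ α := by
    have h := (hmkN1 ((m : ℤ), -α)).2 ⟨1, 0, by simp⟩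
    have h2 := congrArg ι h
    rw [hmk, map_one, zpow_neg, mul_inv_eq_one] at h2
    exact h2
  let ρ : PresentedGroup (metaRels m n r t) →* Γ ⧸ zpowers w :=
    PresentedGroup.toGroup (f := fun x : Bool => if x then p A else p B) (by
      intro x hx
      simp only [metaRels, Set.mem_insert_iff, Set.mem_singleton_iff] at hx
      rcases hx with rfl | rfl | rfl
      · simp only [map_pow, FreeGroup.lift_apply_of, if_true]
        rw [← map_pow, ← zpow_natCast, hAm, map_zpow, hpw, one_zpow]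
      · simp only [map_mul, map_inv, map_pow, FreeGroup.lift_apply_of]
        simp only [Bool.false_eq_true, if_false, if_true]
        rw [← map_pow p, ← map_pow p, hBn, mul_inv_cancel]
      · simp only [map_mul, map_inv, map_pow, FreeGroup.lift_apply_of]
        simp only [Bool.false_eq_true, if_false, if_true]
        rw [← map_inv p B, ← map_mul, ← map_mul, hBA, map_mul, map_zpow p w, hpw, one_zpow, mul_one,
          map_zpow, zpow_natCast, mul_inv_cancel])
  have hρa : ρ (PresentedGroup.of true) = p A := by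
    rw [PresentedGroup.toGroup.of]; rfl
  have hρb : ρ (PresentedGroup.of false) = p B := by
    rw [PresentedGroup.toGroup.of]; rfl
  set a : PresentedGroup (metaRels m n r t) := PresentedGroup.of true with ha
  set b : PresentedGroup (metaRels m n r t) := PresentedGroup.of false with hb
  have ham : a ^ m = 1 := PresentedGroup.one_of_mem (Set.mem_insert _ _)
  have hbn : b ^ n = a ^ t :=
    mul_inv_eq_one.1 (PresentedGroup.one_of_mem (Set.mem_insert_of_mem _ (Set.mem_insert _ _)))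
  have hba : b * a * b⁻¹ = a ^ r :=
    mul_inv_eq_one.1 (PresentedGroup.one_of_mem
      (Set.mem_insert_of_mem _ (Set.mem_insert_of_mem _ (Set.mem_singleton _))))
  let g₁ : ℤ × ℤ →+ Additive (PresentedGroup (metaRels m n r t)) :=
    (zmultiplesHom _ (Additive.ofMul a)).comp (AddMonoidHom.fst ℤ ℤ)
  let θN : N →* PresentedGroup (metaRels m n r t) :=
    AddMonoidHom.toMultiplicativeLeft (QuotientAddGroup.lift L g₁ (by
      rintro _ ⟨i, j, rfl⟩
      show (((m : ℤ) * i) • Additive.ofMul a : Additive _) = 0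
      apply Additive.toMul.injective
      rw [toMul_zsmul, toMul_ofMul, zpow_mul, zpow_natCast, ham, one_zpow, toMul_zero]))
  have hθN : ∀ v, θN (mkN v) = a ^ v.1 := fun v => rfl
  have hcompat : ∀ g : Multiplicative ℤ, θN.comp (φ g).toMonoidHom =
      (MulAut.conj (zpowersHom _ b g)).toMonoidHom.comp θN := by
    have h1 : θN.comp ψ.toMonoidHom = (MulAut.conj b).toMonoidHom.comp θN := by
      refine MonoidHom.ext fun x => ?_
      obtain ⟨v, rfl⟩ := mkN_surj x
      show θN (ψ (mkN v)) = b * θN (mkN v) * b⁻¹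
      rw [hψ, hθN, hθN, ← conj_zpow, hba, zpow_mul, zpow_natCast]
    intro g
    induction g using Multiplicative.rec with
    | _ i =>
      show θN.comp (ψ ^ i).toMonoidHom = (MulAut.conj (b ^ i)).toMonoidHom.comp θN
      have key : ∀ x, θN ((ψ ^ i) x) = b ^ i * θN x * (b ^ i)⁻¹ := by
        induction i using Int.induction_on with
        | zero => intro x; simp
        | succ i ih =>
          intro x
          have h2 : θN (ψ x) = b * θN x * b⁻¹ := DFunLike.congr_fun h1 x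
          rw [zpow_add_one, zpow_add_one, MulAut.mul_apply, ih, h2]
          group
        | pred i ih =>
          intro x
          have h2 : θN (ψ⁻¹ x) = b⁻¹ * θN x * b := by
            have := DFunLike.congr_fun h1 (ψ⁻¹ x)
            simp only [MonoidHom.comp_apply, MulEquiv.coe_toMonoidHom, MulAut.conj_apply,
              MulAut.apply_inv_self] at this
            rw [this]
            group
          rw [zpow_sub_one, zpow_sub_one, MulAut.mul_apply, ih, h2]
          group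
      exact MonoidHom.ext key
  let σS : S →* PresentedGroup (metaRels m n r t) :=
    SemidirectProduct.lift θN (zpowersHom _ b) hcompat
  let σ : Γ →* PresentedGroup (metaRels m n r t) :=
    QuotientGroup.lift (zpowers e) σS (by
      rw [zpowers_le, MonoidHom.mem_ker]
      show σS (SemidirectProduct.inl _ * SemidirectProduct.inr _) = 1
      rw [map_mul, SemidirectProduct.lift_inl, SemidirectProduct.lift_inr, hθN]
      simp [hbn])
  have hσA : σ A = a := by
    show σS (SemidirectProduct.inl _) = a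
    rw [SemidirectProduct.lift_inl, hθN, zpow_one]
  have hσB : σ B = b := by
    show σS bS = b
    rw [SemidirectProduct.lift_inr]
    simp
  have hσw : σ w = 1 := by
    show σS (SemidirectProduct.inl _) = 1
    rw [SemidirectProduct.lift_inl, hθN, zpow_zero]
  have hsurj : Function.Surjective σ := by
    rw [← MonoidHom.range_eq_top, eq_top_iff, ← PresentedGroup.closure_range_of, Subgroup.closure_le]
    rintro _ ⟨x, rfl⟩
    cases x
    · exact ⟨B, hσB⟩
    · exact ⟨A, hσA⟩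
  have hρσ : ρ.comp σ = p := by
    have hle : ι.range ⊔ zpowers B ≤ (ρ.comp σ).eqLocus p := by
      rw [sup_le_iff, zpowers_le]
      refine ⟨?_, ?_⟩
      · rintro _ ⟨x, rfl⟩
        obtain ⟨⟨x, y⟩, rfl⟩ := mkN_surj x
        show ρ (σ (ι (mkN (x, y)))) = p (ι (mkN (x, y)))
        rw [hmk, map_mul, map_mul, map_zpow, map_zpow, map_zpow, map_zpow, map_mul, map_zpow,
          map_zpow, hσA, hσw, map_one, hρa, hpw]
      · show ρ (σ B) = p B
        rw [hσB, hρb]
    rw [hgenN] at hle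
    exact MonoidHom.ext fun x => hle (mem_top x)
  have hker : σ.ker = zpowers w := by
    refine le_antisymm (fun x hx => ?_) (by rw [zpowers_le]; exact hσw)
    rw [← QuotientGroup.eq_one_iff]
    show p x = 1
    rw [← hρσ, MonoidHom.comp_apply, MonoidHom.mem_ker.1 hx, map_one]
  haveI hfinN : Finite N := by
    let f : Fin m × Fin k → N := fun v => mkN ((v.1 : ℕ), (v.2 : ℕ))
    refine Finite.of_surjective f fun x => ?_
    obtain ⟨⟨x, y⟩, rfl⟩ := mkN_surj x
    have hm' : (0 : ℤ) < m := by exact_mod_cast hm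
    have hk' : (0 : ℤ) < k := by exact_mod_cast hk
    set y' := y + α * (x / m)
    refine ⟨(⟨(x % m).toNat, ?_⟩, ⟨(y' % k).toNat, ?_⟩), ?_⟩
    · have := Int.emod_lt_of_pos x hm'; have := Int.emod_nonneg x hm'.ne'; omega
    · have := Int.emod_lt_of_pos y' hk'; have := Int.emod_nonneg y' hk'.ne'; omega
    refine mkN_eq _ _ ⟨x / m, y' / k, ?_⟩
    simp only [Int.toNat_of_nonneg (Int.emod_nonneg x hm'.ne'),
      Int.toNat_of_nonneg (Int.emod_nonneg y' hk'.ne')]
    ext
    · show x - x % m = _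
      rw [Int.emod_def]; ring
    · show y - y' % k = _
      rw [Int.emod_def]; ring
  haveI hfinΓ : Finite Γ := by
    refine Finite.of_surjective (fun v : N × Fin n => ι v.1 * B ^ (v.2 : ℕ)) fun g => ?_
    obtain ⟨s, rfl⟩ := QuotientGroup.mk'_surjective _ g
    set i := s.right.toAdd
    have hn' : (0 : ℤ) < n := by exact_mod_cast hn
    have hr' : q (SemidirectProduct.inr s.right) = B ^ i := by
      rw [hB, ← map_zpow, ← map_zpow, ← ofAdd_zsmul]
      simp [i]
    refine ⟨(s.left * mkN ((t : ℤ) * (i / n), 0), ⟨(i % n).toNat, ?_⟩), ?_⟩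
    · have := Int.emod_lt_of_pos i hn'; have := Int.emod_nonneg i hn'.ne'; omega
    show ι (s.left * mkN ((t : ℤ) * (i / n), 0)) * B ^ (i % n).toNat = q s
    rw [← zpow_natCast, Int.toNat_of_nonneg (Int.emod_nonneg i hn'.ne'), map_mul, hmk, zpow_zero,
      mul_one, mul_assoc]
    conv_rhs => rw [← SemidirectProduct.inl_left_mul_inr_right s, map_mul, hr']
    rw [zpow_mul, zpow_natCast, ← hBn, ← zpow_natCast, ← zpow_mul, ← zpow_add, Int.mul_ediv_add_emod]
    rfl
  refine ⟨Finite.of_surjective σ hsurj, ?_, Γ, inferInstance, hfinΓ, σ, ⟨hsurj, ?_, ?_⟩, ?_⟩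
  · apply Nat.dvd_antisymm (orderOf_dvd_of_pow_eq_one ham)
    set x := orderOf a
    have h1 : p (A ^ (x : ℤ)) = 1 := by
      rw [map_zpow, ← hρa, zpow_natCast, ← map_pow, pow_orderOf_eq_one, map_one]
    obtain ⟨y, hy⟩ := (QuotientGroup.eq_one_iff _).1 h1
    have h2 : ι (mkN ((x : ℤ), -y)) = 1 := by
      rw [hmk, zpow_neg, mul_inv_eq_one]
      exact hy.symm
    rw [← map_one ι, hι.eq_iff, hmkN1] at h2
    obtain ⟨i, j, hij⟩ := h2
    simp only [Prod.mk.injEq] at hij
    exact Int.natCast_dvd_natCast.1 ⟨i, hij.1⟩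
  · rw [hker, zpowers_le]
    exact hwc
  · rw [hker, zpowers_le]
    have hc : ⁅B, A⁆ = A ^ ((r : ℤ) - 1) * w ^ β := by
      rw [commutatorElement_def, hBA, zpow_sub_one, mul_assoc, mul_assoc,
        Subgroup.mem_center_iff.1 (zpow_mem hwc β) A⁻¹]
    have hwu : w = ⁅B, A⁆ ^ u := by
      have hcomm : Commute (A ^ ((r : ℤ) - 1)) (w ^ β) :=
        Subgroup.mem_center_iff.1 (zpow_mem hwc β) _
      rw [hc, hcomm.mul_zpow, ← zpow_mul, ← zpow_mul, ← hmk, hw]
      refine congrArg ι (mkN_eq _ _ ?_)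
      convert hu using 1
      ext <;> simp <;> ring
    rw [hwu]
    exact zpow_mem (commutator_mem_commutator (mem_top _) (mem_top _)) _
  · haveI : NeZero k := ⟨hk.ne'⟩
    rw [hker]
    exact ⟨mulEquivOfCyclicCardEq (by
      rw [Nat.card_zpowers, hwk, Nat.card_congr Multiplicative.toAdd, Nat.card_zmod])⟩

/-- The upper bound. -/
theorem metacyclic_card_dvd {W : Type u} [Group W] [Finite W] {G : Type} [Group G] {σ : W →* G}
    (hσ : IsStemExtension σ) {a b : G} {m n r t l : ℕ} (hgen : zpowers a ⊔ zpowers b = ⊤)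
    (hrel : b * a * b⁻¹ = a ^ r) (hbn : b ^ n = a ^ t) (hord : orderOf a = m) (hm : 0 < m)
    (ht : Int.gcd ((r : ℤ) - 1) m * t = m * l) :
    Nat.card σ.ker ∣ Nat.gcd l
      (Int.gcd ((r : ℤ) - 1) m * Nat.gcd m (∑ i ∈ Finset.range n, r ^ i) / m) := by
  obtain ⟨A, rfl⟩ := hσ.1 a
  obtain ⟨B, rfl⟩ := hσ.1 b
  have hrel' : σ B * σ A * (σ B)⁻¹ = σ A ^ (r : ℤ) := by rw [hrel, zpow_natCast]
  have hle := metacyclic_ker_le hσ A B r hgen hrel'
  rw [hord] at hle
  obtain ⟨-, -, hcm, z, hz, hconj⟩ := metacyclic_structure hσ A B r hgen hrel'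
  rw [hord] at hcm
  set d := Int.gcd ((r : ℤ) - 1) m with hd
  set c := ⁅B, A⁆ with hc
  have hzc : ∀ g, Commute z g := fun g => (Subgroup.mem_center_iff.1 (hσ.2.1 hz) g).symm
  have hc' : c = A ^ ((r : ℤ) - 1) * z := by
    rw [hc, commutatorElement_def, hconj, mul_assoc, (hzc _).eq, ← mul_assoc, ← zpow_sub_one]
  -- conjugation by powers of `B`
  have hiter : ∀ i : ℕ, B ^ i * A * (B ^ i)⁻¹ = A ^ ((r ^ i : ℕ) : ℤ) *
      z ^ ((∑ j ∈ Finset.range i, r ^ j : ℕ) : ℤ) := by
    intro i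
    induction i with
    | zero => simp
    | succ i ih =>
      calc B ^ (i + 1) * A * (B ^ (i + 1))⁻¹ = B * (B ^ i * A * (B ^ i)⁻¹) * B⁻¹ := by
            rw [pow_succ']; group
        _ = (B * A * B⁻¹) ^ ((r ^ i : ℕ) : ℤ) * (B * z * B⁻¹) ^ ((∑ j ∈ Finset.range i, r ^ j : ℕ) : ℤ) := by
            rw [ih, conj_zpow, conj_zpow]; group
        _ = _ := by
            rw [hconj, show B * z * B⁻¹ = z by rw [← (hzc B).eq, mul_inv_cancel_right],
              (hzc _).symm.mul_zpow, ← zpow_mul, mul_assoc, ← zpow_add, ← Nat.cast_mul, ← pow_succ',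
              ← Nat.cast_add, add_comm (r ^ i), ← Finset.sum_range_succ]
  obtain ⟨z', hz', hBn⟩ : ∃ z', (∀ g, Commute z' g) ∧ B ^ n = A ^ t * z' := by
    refine ⟨(A ^ t)⁻¹ * B ^ n, fun g => (Subgroup.mem_center_iff.1 (hσ.2.1 ?_) g).symm, by group⟩
    rw [MonoidHom.mem_ker, map_mul, map_inv, map_pow, map_pow, hbn, inv_mul_cancel]
  have hcS : c ^ ((∑ j ∈ Finset.range n, r ^ j : ℕ) : ℤ) = 1 := by
    have h := hiter n
    have hcomm : B ^ n * A * (B ^ n)⁻¹ = A := by
      rw [mul_inv_eq_iff_eq_mul, hBn, mul_assoc, (hz' A).eq, ← mul_assoc, ← pow_succ, pow_succ',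
        ← mul_assoc]
    rw [hcomm] at h
    rw [hc', (hzc _).symm.mul_zpow, ← zpow_mul,
      show ((r : ℤ) - 1) * ((∑ j ∈ Finset.range n, r ^ j : ℕ) : ℤ) = ((r ^ n : ℕ) : ℤ) - 1 by
        push_cast; rw [mul_comm, geom_sum_mul],
      zpow_sub_one, mul_assoc, ← ((hzc A⁻¹).zpow_left _).eq, ← mul_assoc, ← h, mul_inv_cancel]
  have hct : c ^ (t : ℤ) = 1 := by
    have h1 : B * A ^ (t : ℤ) * B⁻¹ = A ^ (t : ℤ) := by
      rw [zpow_natCast, show A ^ t = B ^ n * z'⁻¹ by rw [hBn]; group,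
        show B * (B ^ n * z'⁻¹) = B ^ n * z'⁻¹ * B by
          rw [← mul_assoc, ← pow_succ', pow_succ, mul_assoc, mul_assoc, ((hz' B).inv_left).eq],
        mul_inv_cancel_right]
    rw [← conj_zpow, hconj, (hzc _).symm.mul_zpow, ← zpow_mul] at h1
    rw [hc', (hzc _).symm.mul_zpow, ← zpow_mul, sub_mul, one_mul, zpow_sub, mul_assoc,
      ← ((hzc (A ^ (t : ℤ))⁻¹).zpow_left _).eq, ← mul_assoc, h1, mul_inv_cancel]
  have hcg : c ^ Nat.gcd m (∑ j ∈ Finset.range n, r ^ j) = 1 :=
    pow_gcd_eq_one.2 ⟨hcm, by rw [← zpow_natCast]; exact hcS⟩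
  set S := ∑ j ∈ Finset.range n, r ^ j
  have hdm : d ∣ m := by
    have := Int.gcd_dvd_right ((r : ℤ) - 1) (m : ℤ)
    exact_mod_cast this
  have hd0 : 0 < d := Nat.pos_of_dvd_of_pos hdm hm
  set e := m / d
  have he : d * e = m := Nat.mul_div_cancel' hdm
  have he0 : 0 < e := Nat.div_pos (Nat.le_of_dvd hm hdm) hd0
  have hcard : Nat.card σ.ker ∣ orderOf (c ^ e) := by
    rw [← Nat.card_zpowers]
    exact Subgroup.card_dvd_of_le hle
  have hσc : σ c = σ A ^ ((r : ℤ) - 1) := by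
    rw [hc', map_mul, map_zpow, MonoidHom.mem_ker.1 hz, mul_one]
  -- `e` divides the exponent of `c`
  have he_dvd : e ∣ Nat.gcd m S := by
    have h1 : σ A ^ (((r : ℤ) - 1) * (Nat.gcd m S : ℕ)) = 1 := by
      rw [zpow_mul, zpow_natCast, ← hσc, ← map_pow, hcg, map_one]
    rw [← orderOf_dvd_iff_zpow_eq_one, hord] at h1
    have h2 : (m : ℤ) ∣ (d : ℤ) * (Nat.gcd m S : ℕ) := by
      rw [hd, Int.gcd_eq_gcd_ab, add_mul]
      refine dvd_add ?_ ?_
      · rw [mul_right_comm]
        exact Dvd.dvd.mul_right h1 _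
      · rw [mul_assoc]
        exact dvd_mul_right _ _
    rw [← Nat.cast_mul, Int.natCast_dvd_natCast] at h2
    exact Nat.dvd_of_mul_dvd_mul_left hd0 (by rw [he]; exact h2)
  refine hcard.trans (Nat.dvd_gcd (orderOf_dvd_of_pow_eq_one ?_) (orderOf_dvd_of_pow_eq_one ?_))
  · have htl : e * l = t := by
      apply Nat.eq_of_mul_eq_mul_left hd0
      rw [ht, ← mul_assoc, he]
    rw [← pow_mul, htl, ← zpow_natCast, hct]
  · obtain ⟨g', hg'⟩ := he_dvd
    have h3 : d * Nat.gcd m S / m = g' := by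
      rw [hg', ← mul_assoc, he, Nat.mul_div_cancel_left _ hm]
    rw [← pow_mul, h3, ← hg', hcg]

theorem metacyclic_multiplier (m n r l : ℕ) (hm : 0 < m) (hn : 0 < n) (hr : 0 < r)
    (hrn : r ^ n ≡ 1 [MOD m]) :
    HasCyclicSchurMultiplier (PresentedGroup (metaRels m n r (m * l / Nat.gcd m (r - 1))))
      (Nat.gcd l (Nat.gcd m (r - 1) * Nat.gcd m (∑ i ∈ Finset.range n, r ^ i) / m)) := by
  set d := Nat.gcd m (r - 1) with hd
  set S := ∑ i ∈ Finset.range n, r ^ i with hS
  have hdm : d ∣ m := Nat.gcd_dvd_left _ _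
  have hd0 : 0 < d := Nat.pos_of_dvd_of_pos hdm hm
  obtain ⟨e, he⟩ := hdm
  obtain ⟨f, hf⟩ : d ∣ r - 1 := Nat.gcd_dvd_right _ _
  have he0 : 0 < e := Nat.pos_of_ne_zero fun h => by rw [h, mul_zero] at he; omega
  have hr1 : (r : ℤ) - 1 = (d : ℤ) * f := by
    rw [← Nat.cast_mul, ← hf]; omega
  set t := m * l / d with htdef
  have ht : t = e * l := by
    rw [htdef, he, mul_assoc, Nat.mul_div_cancel_left _ hd0]
  have hgcd : Int.gcd ((r : ℤ) - 1) m = d := by
    rw [hd, Nat.gcd_comm, show (r : ℤ) - 1 = ((r - 1 : ℕ) : ℤ) by omega, Int.gcd_natCast_natCast]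
  have hgm : e ∣ Nat.gcd m S := by
    refine Nat.dvd_gcd (Dvd.intro_left d he.symm) ?_
    have h1 : (m : ℤ) ∣ ((r : ℤ) - 1) * (S : ℤ) := by
      have := (Nat.modEq_iff_dvd.1 hrn.symm)
      rw [hS]; push_cast at this ⊢
      rwa [mul_comm, geom_sum_mul]
    rw [← Int.natCast_dvd_natCast]
    have hco : Int.gcd (e : ℤ) (f : ℤ) = 1 := by
      rw [Int.gcd_natCast_natCast]
      have h2 : d * Nat.gcd e f = d * 1 := by
        rw [← Nat.gcd_mul_left, ← he, ← hf, mul_one]
      exact Nat.eq_of_mul_eq_mul_left hd0 h2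
    refine Int.dvd_of_dvd_mul_right_of_gcd_one (b := (f : ℤ)) ?_ hco
    rw [hr1, he, Nat.cast_mul, mul_assoc] at h1
    exact Int.dvd_of_mul_dvd_mul_left (by exact_mod_cast hd0.ne') h1
  obtain ⟨g', hg'⟩ := hgm
  have hh : d * Nat.gcd m S / m = g' := by
    rw [hg', ← mul_assoc, ← he, Nat.mul_div_cancel_left _ hm]
  rw [hh]
  set k := Nat.gcd l g'
  have hg0 : 0 < g' := Nat.pos_of_ne_zero fun h => by
    rw [h, mul_zero] at hg'; exact hm.ne' (Nat.gcd_eq_zero_iff.1 hg').1
  have hk : 0 < k := Nat.gcd_pos_of_pos_right _ hg0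
  have hg'd : g' ∣ d := by
    apply Nat.dvd_of_mul_dvd_mul_left he0
    rw [← hg', mul_comm e d, ← he]
    exact Nat.gcd_dvd_left _ _
  -- Bezout
  have hbez : (1 : ℤ) = (f : ℤ) * Nat.gcdA f e + (e : ℤ) * Nat.gcdB f e := by
    rw [← Nat.gcd_eq_gcd_ab]
    have h2 : d * Nat.gcd f e = d * 1 := by
      rw [← Nat.gcd_mul_left, ← he, ← hf, mul_one, Nat.gcd_comm]
    rw [Nat.eq_of_mul_eq_mul_left hd0 h2, Nat.cast_one]
  set α := Nat.gcdA f e
  set β := Nat.gcdB f e
  have hm' : (m : ℤ) = (d : ℤ) * e := by rw [he, Nat.cast_mul]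
  obtain ⟨s, hs⟩ : e * g' ∣ S := hg' ▸ Nat.gcd_dvd_right m S
  have hS' : (∑ i ∈ Finset.range n, (r : ℤ) ^ i) = (e : ℤ) * g' * s := by
    have : ((S : ℕ) : ℤ) = (e : ℤ) * g' * s := by rw [hs]; push_cast; ring
    rw [← this, hS]; push_cast; rfl
  obtain ⟨k₁, hk₁⟩ : (k : ℤ) ∣ (g' : ℤ) := Int.natCast_dvd_natCast.2 (Nat.gcd_dvd_right l g')
  obtain ⟨k₂, hk₂⟩ : (k : ℤ) ∣ (l : ℤ) := Int.natCast_dvd_natCast.2 (Nat.gcd_dvd_left l g')
  have hkd : (k : ℤ) ∣ (d : ℤ) :=
    Int.natCast_dvd_natCast.2 ((Nat.gcd_dvd_right l g').trans hg'd)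
  have ht' : (t : ℤ) = (e : ℤ) * l := by rw [ht, Nat.cast_mul]
  obtain ⟨hfin, hord, W, iW, fW, σ, hσ, ⟨i⟩⟩ := exists_metacyclic_stem m n r t k d α β (e : ℤ) hm hn hk
    (by rw [hr1, hm']; linear_combination (-(d : ℤ)) * hbez) hkd
    ⟨(f : ℤ) * g' * s, k₁ * s, by
      rw [hS', hm', hr1]; ext
      · show (d : ℤ) * f * ((e : ℤ) * g' * s) = _; ring
      · show β * ((e : ℤ) * g' * s) = _
        linear_combination (-((g' : ℤ) * s)) * hbez + (s : ℤ) * hk₁⟩
    ⟨(l : ℤ) * f, k₂, by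
      rw [ht', hm', hr1]; ext
      · show (e : ℤ) * l * ((d : ℤ) * f) = _; ring
      · show (e : ℤ) * l * β = _
        linear_combination (-(l : ℤ)) * hbez + hk₂⟩
    ⟨(f : ℤ), 0, by
      rw [hm', hr1]; ext
      · show (e : ℤ) * ((d : ℤ) * f) = _; ring
      · show (e : ℤ) * β - 1 = _
        linear_combination (-1 : ℤ) * hbez⟩
  haveI := hfin
  refine hasSchurMultiplier_of_stem hσ ?_ i
  obtain ⟨V, iV, fV, θ, hθ, ⟨j⟩⟩ := exists_schurCover (PresentedGroup (metaRels m n r t))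
  have hgen : zpowers (PresentedGroup.of true : PresentedGroup (metaRels m n r t)) ⊔
      zpowers (PresentedGroup.of false) = ⊤ := by
    rw [eq_top_iff, ← PresentedGroup.closure_range_of, Subgroup.closure_le]
    rintro _ ⟨x, rfl⟩
    cases x
    · exact mem_sup_right (mem_zpowers _)
    · exact mem_sup_left (mem_zpowers _)
  have h := metacyclic_card_dvd (r := r) (n := n) (t := t) (l := l) hθ hgen
    (mul_inv_eq_one.1 (PresentedGroup.one_of_mem
      (Set.mem_insert_of_mem _ (Set.mem_insert_of_mem _ (Set.mem_singleton _)))))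
    (mul_inv_eq_one.1 (PresentedGroup.one_of_mem (Set.mem_insert_of_mem _ (Set.mem_insert _ _))))
    hord hm (by rw [hgcd, ht, he]; ring)
  rw [hgcd, hh, Nat.card_congr j.toEquiv] at h
  rw [Nat.card_congr i.toEquiv, Nat.card_congr Multiplicative.toAdd, Nat.card_zmod]
  exact Nat.le_of_dvd hk h

end Cfsg.Agent.SchurMul
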