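import Cfsg.Agent.CentralExt.Basic

/-!
# Relators bound the rank of the multiplier
-/

set_option autoImplicit false

namespace Cfsg.Agent.SchurMul

universe u v

open Subgroup CentralExt

theorem rank_multiplier_le (n : ℕ) (rels : Finset (FreeGroup (Fin n)))
    [Finite (PresentedGroup (rels : Set (FreeGroup (Fin n))))] {A : Type v} [CommGroup A] [Finite A]
    (hA : HasSchurMultiplier (PresentedGroup (rels : Set (FreeGroup (Fin n)))) A) :
    Group.rank A ≤ rels.card - n := by
  classical
  set R : Subgroup (FreeGroup (Fin n)) := normalClosure (rels : Set (FreeGroup (Fin n)))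
  set G := PresentedGroup (rels : Set (FreeGroup (Fin n)))
  haveI hRn : R.Normal := normalClosure_normal
  let S : Subgroup (FreeGroup (Fin n)) := ⁅R, (⊤ : Subgroup (FreeGroup (Fin n)))⁆
  haveI : S.Normal := Subgroup.commutator_normal R ⊤
  let q := QuotientGroup.mk' S
  let K := R.map q
  have hcen : K ≤ center (FreeGroup (Fin n) ⧸ S) := by
    rintro _ ⟨x, hx, rfl⟩
    rw [Subgroup.mem_center_iff]
    intro g
    obtain ⟨g, rfl⟩ := QuotientGroup.mk'_surjective S g
    refine (commutatorElement_eq_one_iff_mul_comm.1 ?_).symm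
    rw [← map_commutatorElement]
    exact (QuotientGroup.eq_one_iff _).2 (commutator_mem_commutator hx (mem_top g))
  -- abelianised degree map
  let d₀ : FreeGroup (Fin n) →* Multiplicative (Fin n →₀ ℤ) :=
    FreeGroup.lift fun g => Multiplicative.ofAdd (Finsupp.single g (1 : ℤ))
  have hS : S ≤ d₀.ker := by
    rw [Subgroup.commutator_le]
    intro r _ f _
    rw [MonoidHom.mem_ker, map_commutatorElement, commutatorElement_eq_one_iff_mul_comm]
    exact mul_comm _ _
  let d : FreeGroup (Fin n) ⧸ S →* Multiplicative (Fin n →₀ ℤ) := QuotientGroup.lift S d₀ hS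
  have hd : ∀ x, d x = 1 → x ∈ commutator (FreeGroup (Fin n) ⧸ S) := by
    intro x h
    let s : Multiplicative (Fin n →₀ ℤ) →* Abelianization (FreeGroup (Fin n) ⧸ S) :=
      AddMonoidHom.toMultiplicativeLeft (Finsupp.liftAddHom fun g =>
        zmultiplesHom _ (Additive.ofMul (Abelianization.of (q (FreeGroup.of g)))))
    have hs : s.comp (d.comp q) = Abelianization.of.comp q := by
      apply FreeGroup.ext_hom
      intro g
      simp [s, d, d₀, q]
    obtain ⟨y, rfl⟩ := QuotientGroup.mk'_surjective S x
    have h2 := DFunLike.congr_fun hs y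
    simp only [MonoidHom.comp_apply] at h2
    rw [h, map_one] at h2
    rw [← Abelianization.ker_of]
    exact h2.symm
  letI : CommGroup K :=
    { (inferInstance : Group K) with
      mul_comm := fun a b => Subtype.ext (Subgroup.mem_center_iff.1 (hcen b.2) a) }
  let D : Additive K →ₗ[ℤ] (Fin n →₀ ℤ) :=
    (MonoidHom.toAdditiveLeft (d.comp K.subtype)).toIntLinearMap
  -- the relators generate the kernel
  let gens : rels → Additive K := fun r =>
    Additive.ofMul ⟨q r.1, Subgroup.mem_map_of_mem q (subset_normalClosure r.2)⟩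
  let φ : (rels → ℤ) →ₗ[ℤ] Additive K := Fintype.linearCombination ℤ gens
  have hφ : Function.Surjective φ := by
    have hgen : K ≤ Subgroup.closure (q '' (rels : Set (FreeGroup (Fin n)))) := by
      rw [map_le_iff_le_comap]
      haveI : (Subgroup.closure (q '' (rels : Set (FreeGroup (Fin n))))).Normal := ⟨fun a ha g => by
        have hle : Subgroup.closure (q '' (rels : Set (FreeGroup (Fin n)))) ≤ K := by
          rw [Subgroup.closure_le]
          rintro _ ⟨r, hr, rfl⟩
          exact Subgroup.mem_map_of_mem q (subset_normalClosure hr)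
        rwa [Subgroup.mem_center_iff.1 (hcen (hle ha)) g, mul_inv_cancel_right]⟩
      exact normalClosure_le_normal fun r hr => subset_closure ⟨r, hr, rfl⟩
    suffices h : ∀ x ∈ Subgroup.closure (q '' (rels : Set (FreeGroup (Fin n)))),
        ∃ c : rels → ℤ, ((Additive.toMul (φ c) : K) : FreeGroup (Fin n) ⧸ S) = x by
      intro k
      obtain ⟨c, hc⟩ := h _ (hgen (Additive.toMul k).2)
      exact ⟨c, Additive.toMul.injective (Subtype.ext hc)⟩
    intro x hx
    induction hx using Subgroup.closure_induction with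
    | mem x hx =>
      obtain ⟨r, hr, rfl⟩ := hx
      refine ⟨Pi.single ⟨r, hr⟩ 1, ?_⟩
      rw [Fintype.linearCombination_apply_single, one_smul]
      rfl
    | one => exact ⟨0, by rw [map_zero]; rfl⟩
    | mul x y _ _ hx hy =>
      obtain ⟨a, rfl⟩ := hx
      obtain ⟨b, rfl⟩ := hy
      exact ⟨a + b, by rw [map_add]; rfl⟩
    | inv x _ hx =>
      obtain ⟨a, rfl⟩ := hx
      exact ⟨-a, by rw [map_neg]; rfl⟩
  let π : FreeGroup (Fin n) ⧸ S →* G :=
    QuotientGroup.lift S (PresentedGroup.mk (rels : Set (FreeGroup (Fin n)))) (by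
      rw [Subgroup.commutator_le]
      intro r hr f _
      rw [MonoidHom.mem_ker, map_commutatorElement,
        show PresentedGroup.mk (rels : Set (FreeGroup (Fin n))) r = 1 from
          (QuotientGroup.eq_one_iff r).2 hr, commutatorElement_one_left])
  have hπK : ∀ x, π x = 1 ↔ x ∈ K := by
    intro x
    obtain ⟨y, rfl⟩ := QuotientGroup.mk'_surjective S x
    constructor
    · intro h
      exact Subgroup.mem_map_of_mem q ((QuotientGroup.eq_one_iff y).1 h)
    · rintro ⟨r, hr, hre⟩
      rw [← hre]
      exact (QuotientGroup.eq_one_iff r).2 hr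
  -- the rank of the image of the degree map
  have hfull : ∀ g : Fin n, (Nat.card G : ℤ) • Finsupp.single g (1 : ℤ) ∈
      LinearMap.range (D.comp φ) := by
    intro g
    have hk : (q (FreeGroup.of g)) ^ Nat.card G ∈ K := by
      rw [← hπK, map_pow]
      exact pow_card_eq_one'
    obtain ⟨c, hc⟩ := hφ (Additive.ofMul ⟨_, hk⟩)
    refine ⟨c, ?_⟩
    rw [LinearMap.comp_apply, hc]
    show Multiplicative.toAdd (d ((q (FreeGroup.of g)) ^ Nat.card G)) = _
    simp [d, d₀, q, Finsupp.smul_single]
  have hinj : Function.Injective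
      ((Nat.card G : ℤ) • LinearMap.id : (Fin n →₀ ℤ) →ₗ[ℤ] (Fin n →₀ ℤ)) := fun a b h => by
    ext g
    have := congrArg (fun f : Fin n →₀ ℤ => f g) h
    simpa [Nat.card_pos.ne'] using this
  have hrle : LinearMap.range ((Nat.card G : ℤ) • LinearMap.id :
      (Fin n →₀ ℤ) →ₗ[ℤ] (Fin n →₀ ℤ)) ≤ LinearMap.range (D.comp φ) := by
    rintro _ ⟨v, rfl⟩
    show (Nat.card G : ℤ) • v ∈ _
    induction v using Finsupp.induction_linear with
    | zero => rw [smul_zero]; exact zero_mem _
    | add f g hf hg => rw [smul_add]; exact add_mem hf hg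
    | single g t =>
      rw [show Finsupp.single g t = t • Finsupp.single g (1 : ℤ) by simp, smul_comm]
      exact Submodule.smul_mem _ _ (hfull g)
  have hrank : n ≤ Module.finrank ℤ (LinearMap.range (D.comp φ)) := by
    refine le_trans ?_ (Submodule.finrank_mono hrle)
    rw [LinearMap.finrank_range_of_inj hinj, Module.finrank_finsupp_self, Fintype.card_fin]
  obtain ⟨m, b⟩ := Submodule.basisOfPid (Pi.basisFun ℤ rels) (LinearMap.ker (D.comp φ))
  have hm : m ≤ rels.card - n := by
    have h1 := Submodule.finrank_quotient_add_finrank (LinearMap.ker (D.comp φ))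
    rw [(LinearMap.quotKerEquivRange (D.comp φ)).finrank_eq, Module.finrank_pi,
      Fintype.card_coe] at h1
    have h2 : Module.finrank ℤ (LinearMap.ker (D.comp φ)) = m := by
      rw [Module.finrank_eq_card_basis b, Fintype.card_fin]
    omega
  -- pass to a Schur cover
  obtain ⟨⟨W, iW, fW, θ, hθ, ⟨e⟩⟩, -⟩ := hA
  let ψ₀ : FreeGroup (Fin n) →* W :=
    FreeGroup.lift fun g => Function.surjInv hθ.1 (PresentedGroup.of g)
  have hψ₀ : θ.comp ψ₀ = PresentedGroup.mk (rels : Set (FreeGroup (Fin n))) := by
    apply FreeGroup.ext_hom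
    intro g
    simp only [MonoidHom.comp_apply, ψ₀, FreeGroup.lift_apply_of, Function.surjInv_eq hθ.1]
    rfl
  have hS₀ : S ≤ ψ₀.ker := by
    rw [Subgroup.commutator_le]
    intro r hr f _
    rw [MonoidHom.mem_ker, map_commutatorElement, commutatorElement_eq_one_iff_mul_comm]
    have h1 : ψ₀ r ∈ θ.ker := by
      rw [MonoidHom.mem_ker, ← MonoidHom.comp_apply, hψ₀]
      exact (QuotientGroup.eq_one_iff r).2 hr
    exact (Subgroup.mem_center_iff.1 (hθ.2.1 h1) (ψ₀ f)).symm
  let ψ : FreeGroup (Fin n) ⧸ S →* W := QuotientGroup.lift S ψ₀ hS₀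
  have hψ : θ.comp ψ = π := QuotientGroup.monoidHom_ext S hψ₀
  have hπs : Function.Surjective π :=
    QuotientGroup.lift_surjective_of_surjective _ _ (PresentedGroup.mk_surjective _) _
  have hψs : Function.Surjective ψ :=
    surjective_of_comp_surjective hθ ψ (by rw [hψ]; exact hπs)
  let gensA : Fin m → A := fun i => e ⟨ψ (Additive.toMul (φ (b i)) : K), by
    rw [MonoidHom.mem_ker, ← MonoidHom.comp_apply, hψ]
    exact (hπK _).2 (Additive.toMul (φ (b i))).2⟩
  have hgenA : Subgroup.closure ((Finset.univ.image gensA : Finset A) : Set A) = ⊤ := by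
    rw [eq_top_iff]
    intro a _
    obtain ⟨z, rfl⟩ := e.surjective a
    have hz : (z : W) ∈ commutator W := hθ.2.2 z.2
    rw [← map_commutator_top ψ hψs] at hz
    obtain ⟨x, hx, hxz⟩ := hz
    have hxK : x ∈ K := by
      rw [← hπK, ← hψ, MonoidHom.comp_apply, hxz]
      exact z.2
    have hx0 : D (Additive.ofMul ⟨x, hxK⟩) = 0 := by
      show Multiplicative.toAdd (d x) = 0
      rw [show d x = 1 from MonoidHom.mem_ker.1 (Abelianization.commutator_subset_ker d hx)]
      rfl
    obtain ⟨c, hc⟩ := hφ (Additive.ofMul ⟨x, hxK⟩)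
    have hck : c ∈ LinearMap.ker (D.comp φ) := by
      rw [LinearMap.mem_ker, LinearMap.comp_apply, hc, hx0]
    have key : ∀ c : LinearMap.ker (D.comp φ), ∀ (h : ψ (Additive.toMul (φ c) : K) ∈ θ.ker),
        e ⟨_, h⟩ ∈ Subgroup.closure ((Finset.univ.image gensA : Finset A) : Set A) := by
      intro c
      induction b.mem_span c using Submodule.span_induction with
      | mem x hx =>
        obtain ⟨i, rfl⟩ := hx
        intro h
        exact subset_closure (by simp [gensA])
      | zero =>
        intro h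
        have : (⟨_, h⟩ : θ.ker) = 1 := Subtype.ext (by simp)
        rw [this, map_one]
        exact one_mem _
      | add x y _ _ hx hy =>
        intro h
        have hx' : ψ (Additive.toMul (φ x) : K) ∈ θ.ker := by
          rw [MonoidHom.mem_ker, ← MonoidHom.comp_apply, hψ]; exact (hπK _).2 (SetLike.coe_mem _)
        have hy' : ψ (Additive.toMul (φ y) : K) ∈ θ.ker := by
          rw [MonoidHom.mem_ker, ← MonoidHom.comp_apply, hψ]; exact (hπK _).2 (SetLike.coe_mem _)
        have : (⟨_, h⟩ : θ.ker) = ⟨_, hx'⟩ * ⟨_, hy'⟩ := Subtype.ext (by simp)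
        rw [this, map_mul]
        exact mul_mem (hx hx') (hy hy')
      | smul t x _ hx =>
        intro h
        have hx' : ψ (Additive.toMul (φ x) : K) ∈ θ.ker := by
          rw [MonoidHom.mem_ker, ← MonoidHom.comp_apply, hψ]; exact (hπK _).2 (SetLike.coe_mem _)
        have : (⟨_, h⟩ : θ.ker) = ⟨_, hx'⟩ ^ t := Subtype.ext (by
          show ψ (Additive.toMul (φ (t • (x : rels → ℤ))) : K) = _
          rw [map_smul, toMul_zsmul, Subgroup.coe_zpow, map_zpow]
          rfl)
        rw [this, map_zpow]
        exact zpow_mem (hx hx') t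
    have hz' : ψ (Additive.toMul (φ (⟨c, hck⟩ : LinearMap.ker (D.comp φ))) : K) ∈ θ.ker := by
      show ψ (Additive.toMul (φ c) : K) ∈ θ.ker
      rw [hc]; show ψ x ∈ θ.ker
      rw [hxz]; exact z.2
    have hfin := key ⟨c, hck⟩ hz'
    convert hfin using 2
    apply Subtype.ext
    show (z : W) = ψ (Additive.toMul (φ c) : K)
    rw [hc]
    exact hxz.symm
  refine (Group.rank_le hgenA).trans ?_
  refine Finset.card_image_le.trans ?_
  rw [Finset.card_univ, Fintype.card_fin]
  exact hm

end Cfsg.Agent.SchurMul
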