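import Cfsg.Agent.SchurMul.Cover

/-!
# Uniqueness of the Schur covering group
-/

set_option autoImplicit false

namespace Cfsg.Agent.SchurMul

universe u v w x

open Subgroup CentralExt

variable {Q : Type u} [Group Q]

/-- Two homomorphisms with the same image modulo a central kernel differ by a central
homomorphism. -/
theorem exists_diff {E : Type v} [Group E] {Γ : Type w} [Group Γ] (σ : Γ →* Q)
    (hc : σ.ker ≤ center Γ) {a b : E →* Γ} (h : σ.comp a = σ.comp b) :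
    ∃ d : E →* σ.ker, ∀ x, a x = (d x : Γ) * b x := by
  have hmem : ∀ x, a x * (b x)⁻¹ ∈ σ.ker := fun x => by
    rw [MonoidHom.mem_ker, map_mul, map_inv, ← MonoidHom.comp_apply, h, MonoidHom.comp_apply,
      mul_inv_cancel]
  refine ⟨{ toFun := fun x => ⟨_, hmem x⟩, map_one' := Subtype.ext (by simp),
            map_mul' := fun x y => Subtype.ext ?_ }, fun x => by simp⟩
  have hy := Subgroup.mem_center_iff.1 (hc (hmem y)) (b x)⁻¹
  calc a (x * y) * (b (x * y))⁻¹ = a x * ((a y * (b y)⁻¹) * (b x)⁻¹) := by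
        simp only [map_mul]; group
    _ = a x * ((b x)⁻¹ * (a y * (b y)⁻¹)) := by rw [hy]
    _ = _ := (mul_assoc _ _ _).symm

theorem covers_iso_of_coprime [Finite Q] {A : Type v} [CommGroup A]
    (hA : HasSchurMultiplier Q A)
    (hcop : Nat.Coprime (Nat.card (Abelianization Q)) (Nat.card A))
    {Γ₁ : Type w} {Γ₂ : Type x} [Group Γ₁] [Finite Γ₁] [Group Γ₂] [Finite Γ₂]
    {σ₁ : Γ₁ →* Q} {σ₂ : Γ₂ →* Q} (h₁ : IsStemExtension σ₁) (h₂ : IsStemExtension σ₂)
    (k₁ : Nonempty (σ₁.ker ≃* A)) (k₂ : Nonempty (σ₂.ker ≃* A)) :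
    ∃ e : Γ₁ ≃* Γ₂, σ₂.comp e.toMonoidHom = σ₁ := by
  obtain ⟨ψ₁, hψ₁, hs₁, hb₁, hsup₁⟩ := cover_data hA h₁ k₁
  obtain ⟨ψ₂, hψ₂, -, -, -⟩ := cover_data hA h₂ k₂
  letI : CommGroup σ₂.ker :=
    { (inferInstance : Group σ₂.ker) with
      mul_comm := fun a b => Subtype.ext (Subgroup.mem_center_iff.1 (h₂.2.1 b.2) (a : Γ₂)) }
  set N := Nat.card (Abelianization Q)
  let j : ψ₁.ker →* Abelianization (HopfExt Q) := Abelianization.of.comp ψ₁.ker.subtype
  have hj : Function.Injective j := by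
    rw [← MonoidHom.ker_eq_bot_iff, eq_bot_iff]
    intro k hk
    have h : (k : HopfExt Q) ∈ ψ₁.ker ⊓ commutator (HopfExt Q) :=
      ⟨k.2, by rw [← Abelianization.ker_of]; exact hk⟩
    rw [hb₁, Subgroup.mem_bot] at h
    exact Subgroup.mem_bot.2 (Subtype.ext h)
  have hpow : ∀ x, (powMonoidHom N : Abelianization (HopfExt Q) →* _) x ∈ j.range := by
    intro x
    obtain ⟨e, rfl⟩ := QuotientGroup.mk_surjective x
    have hq : (hopfPi Q e) ^ N ∈ commutator Q := by
      rw [← Abelianization.ker_of, MonoidHom.mem_ker, map_pow]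
      exact pow_card_eq_one'
    rw [← map_commutator_top _ (hopfPi_surjective Q)] at hq
    obtain ⟨c, hc, hce⟩ := hq
    have hz : c⁻¹ * e ^ N ∈ (hopfPi Q).ker := by
      rw [MonoidHom.mem_ker, map_mul, map_inv, hce, map_pow, inv_mul_cancel]
    rw [← hsup₁] at hz
    haveI : (schurMult Q).Normal := normal_of_le_ker inf_le_left
    obtain ⟨l, hl, m, hm, hlm⟩ := Subgroup.mem_sup_of_normal_right.1 hz
    refine ⟨⟨l, hl⟩, ?_⟩
    show Abelianization.of l = (Abelianization.of e) ^ N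
    rw [← map_pow, show e ^ N = c * (l * m) by rw [hlm]; group, map_mul, map_mul,
      show Abelianization.of c = 1 from MonoidHom.mem_ker.1 (by rw [Abelianization.ker_of]; exact hc),
      show Abelianization.of m = 1 from MonoidHom.mem_ker.1 (by rw [Abelianization.ker_of]; exact hm.2),
      one_mul, mul_one]
  let r : Abelianization (HopfExt Q) →* ψ₁.ker :=
    (MonoidHom.ofInjective hj).symm.toMonoidHom.comp ((powMonoidHom N).codRestrict j.range hpow)
  have hr : ∀ k : ψ₁.ker, r (j k) = k ^ N := by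
    intro k
    apply hj
    show j ((MonoidHom.ofInjective hj).symm _) = _
    rw [MonoidHom.apply_ofInjective_symm, map_pow]
    rfl
  have hcard : (Nat.card σ₂.ker).Coprime N := by
    obtain ⟨e⟩ := k₂
    rw [Nat.card_congr e.toEquiv]
    exact hcop.symm
  have hmem : ∀ k : ψ₁.ker, ψ₂ k ∈ σ₂.ker := fun k => by
    rw [MonoidHom.mem_ker, ← MonoidHom.comp_apply, hψ₂]
    exact MonoidHom.mem_ker.1 (ker_le_ker_hopfPi hψ₁ k.2)
  let δ : ψ₁.ker →* σ₂.ker := (ψ₂.comp ψ₁.ker.subtype).codRestrict σ₂.ker hmem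
  let inv : σ₂.ker →* σ₂.ker := zpowGroupHom (Nat.gcdB (Nat.card σ₂.ker) N)
  have hinv : ∀ z : σ₂.ker, inv (z ^ N) = z := fun z => (powCoprime hcard).symm_apply_apply z
  let c : HopfExt Q →* σ₂.ker := (inv.comp δ).comp (r.comp Abelianization.of)
  have hc : ∀ k : ψ₁.ker, c k = δ k := fun k => by
    show inv (δ (r (j k))) = δ k
    rw [hr, map_pow, hinv]
  let φ : HopfExt Q →* Γ₂ :=
    { toFun := fun x => ((c x : Γ₂))⁻¹ * ψ₂ x
      map_one' := by simp
      map_mul' := fun x y => by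
        simp only [map_mul, Subgroup.coe_mul, mul_inv_rev]
        rw [← mul_assoc, mul_assoc ((c y : Γ₂))⁻¹, ← Subgroup.mem_center_iff.1
          (h₂.2.1 (inv_mem (c y).2)) (((c x : Γ₂))⁻¹ * ψ₂ x)]
        group }
  have hφσ : σ₂.comp φ = hopfPi Q := by
    ext x
    show σ₂ (((c x : Γ₂))⁻¹ * ψ₂ x) = _
    rw [map_mul, map_inv, MonoidHom.mem_ker.1 (c x).2, inv_one, one_mul, ← hψ₂]
    rfl
  have hkill : ψ₁.ker ≤ φ.ker := fun k hk => by
    show ((c k : Γ₂))⁻¹ * ψ₂ k = 1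
    rw [hc ⟨k, hk⟩]
    exact inv_mul_cancel _
  let β := ψ₁.liftOfSurjective hs₁ ⟨φ, hkill⟩
  have hβ : σ₂.comp β = σ₁ := by
    ext g
    obtain ⟨e, rfl⟩ := hs₁ g
    rw [MonoidHom.comp_apply, MonoidHom.liftOfRightInverse_comp_apply, ← MonoidHom.comp_apply σ₁,
      hψ₁, ← hφσ]
    rfl
  have hbs : Function.Surjective β :=
    surjective_of_comp_surjective h₂ β (by rw [hβ]; exact h₁.1)
  have hbij : Function.Bijective β := by
    refine (Nat.bijective_iff_surjective_and_card _).2 ⟨hbs, ?_⟩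
    obtain ⟨a₁⟩ := k₁
    obtain ⟨a₂⟩ := k₂
    rw [Subgroup.card_eq_card_quotient_mul_card_subgroup σ₁.ker,
      Subgroup.card_eq_card_quotient_mul_card_subgroup σ₂.ker,
      Nat.card_congr (QuotientGroup.quotientKerEquivOfSurjective _ h₁.1).toEquiv,
      Nat.card_congr (QuotientGroup.quotientKerEquivOfSurjective _ h₂.1).toEquiv,
      Nat.card_congr a₁.toEquiv, Nat.card_congr a₂.toEquiv]
  exact ⟨MulEquiv.ofBijective β hbij, hβ⟩

theorem coprime_of_covers_iso [Finite Q] {A : Type v} [CommGroup A]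
    (hA : HasSchurMultiplier Q A)
    (h : ∀ (Γ₁ Γ₂ : Type u) [Group Γ₁] [Finite Γ₁] [Group Γ₂] [Finite Γ₂] (σ₁ : Γ₁ →* Q)
      (σ₂ : Γ₂ →* Q), IsStemExtension σ₁ → IsStemExtension σ₂ → Nonempty (σ₁.ker ≃* A) →
      Nonempty (σ₂.ker ≃* A) → ∃ e : Γ₁ ≃* Γ₂, σ₂.comp e.toMonoidHom = σ₁) :
    Nat.Coprime (Nat.card (Abelianization Q)) (Nat.card A) := by
  classical
  haveI : Fintype Q := Fintype.ofFinite Q
  obtain ⟨i⟩ := nonempty_mulEquiv_schurMult hA
  rw [Nat.card_congr i.toEquiv]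
  by_contra hco
  obtain ⟨p, hp, hpQ, hpM⟩ := Nat.Prime.not_coprime_iff_dvd.1 hco
  haveI : Fact p.Prime := ⟨hp⟩
  obtain ⟨K, hKC, hK, hsup⟩ := exists_complement Q (hopfPi Q).ker (hopfPi_ker_le_center Q)
  haveI := normal_of_le_ker hKC
  obtain ⟨y₀, hy⟩ := exists_prime_orderOf_dvd_card' p hpQ
  obtain ⟨q, rfl⟩ := QuotientGroup.mk_surjective y₀
  obtain ⟨y, rfl⟩ := hopfPi_surjective Q q
  have hq : (hopfPi Q y) ^ p ∈ commutator Q := by
    rw [← Abelianization.ker_of, MonoidHom.mem_ker, map_pow]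
    exact hy ▸ pow_orderOf_eq_one _
  rw [← map_commutator_top _ (hopfPi_surjective Q)] at hq
  obtain ⟨c, hc, hce⟩ := hq
  have hz : c⁻¹ * y ^ p ∈ K ⊔ schurMult Q := by
    show _ ∈ K ⊔ ((hopfPi Q).ker ⊓ commutator (HopfExt Q))
    rw [hsup, MonoidHom.mem_ker, map_mul, map_inv, hce, map_pow, inv_mul_cancel]
  obtain ⟨l, hl, m', hm', hlm⟩ := Subgroup.mem_sup_of_normal_left.1 hz
  -- the degree of `l` is a `p`-th power, but `l` is not one inside `K`
  have hdl : hopfDeg Q l = hopfDeg Q y ^ p := by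
    rw [← map_pow, show y ^ p = c * (l * m') by rw [hlm]; group, map_mul, map_mul,
      (hopfDeg_eq_one_iff Q).2 hc, (hopfDeg_eq_one_iff Q).2 hm'.2, one_mul, mul_one]
  have hnp : ∀ k ∈ K, hopfDeg Q (k ^ p) ≠ hopfDeg Q l := by
    intro k hk h
    rw [hdl, map_pow] at h
    have h2 := congrArg Multiplicative.toAdd h
    simp only [toAdd_pow] at h2
    have h' : hopfDeg Q k = hopfDeg Q y := Multiplicative.toAdd.injective (by
      ext g
      have h3 := congrArg (fun f : Q →₀ ℤ => f g) h2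
      simp only [Finsupp.smul_apply, nsmul_eq_mul] at h3
      exact mul_left_cancel₀ (by exact_mod_cast hp.ne_zero) h3)
    have h1 : k⁻¹ * y ∈ commutator (HopfExt Q) := by
      rw [← hopfDeg_eq_one_iff, map_mul, map_inv, h', inv_mul_cancel]
    have h3 : hopfPi Q (k⁻¹ * y) ∈ commutator Q := by
      rw [← map_commutator_top _ (hopfPi_surjective Q)]
      exact Subgroup.mem_map_of_mem _ h1
    rw [map_mul, map_inv, MonoidHom.mem_ker.1 (hKC hk), inv_one, one_mul] at h3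
    have h4 : orderOf (Abelianization.of (hopfPi Q y)) = 1 := by
      rw [orderOf_eq_one_iff, ← MonoidHom.mem_ker, Abelianization.ker_of]
      exact h3
    exact hp.ne_one (hy.symm.trans h4)
  letI : CommGroup K :=
    { (inferInstance : Group K) with
      mul_comm := fun a b => Subtype.ext (Subgroup.mem_center_iff.1
        (hopfPi_ker_le_center Q (hKC b.2)) (a : HopfExt Q)) }
  let f : Additive K →ₗ[ℤ] (Q →₀ ℤ) :=
    (MonoidHom.toAdditiveLeft ((hopfDeg Q).comp K.subtype)).toIntLinearMap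
  obtain ⟨n, b⟩ := Submodule.basisOfPid (Finsupp.basisSingleOne (R := ℤ) (ι := Q)) (LinearMap.range f)
  set r : LinearMap.range f := f.rangeRestrict (Additive.ofMul ⟨l, hl⟩) with hrdef
  obtain ⟨a, ha⟩ : ∃ a, ¬ (p : ℤ) ∣ b.repr r a := by
    by_contra hall
    push Not at hall
    choose d hd using hall
    let s : LinearMap.range f := b.equivFun.symm d
    have hs : r = (p : ℤ) • s := by
      apply b.equivFun.injective
      rw [map_smul, LinearEquiv.apply_symm_apply]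
      ext a
      rw [Module.Basis.equivFun_apply, hd a]
      rfl
    obtain ⟨k, hk⟩ := f.surjective_rangeRestrict s
    refine hnp _ (Additive.toMul k).2 ?_
    have h1 := congrArg Subtype.val hs
    rw [← hk] at h1
    apply Multiplicative.toAdd.injective
    rw [map_pow, toAdd_pow, ← natCast_zsmul]
    exact h1.symm
  obtain ⟨m, hm⟩ : ∃ m : schurMult Q, ∀ z : schurMult Q, z ^ p ≠ m := by
    by_contra hall
    push Not at hall
    have hinj := Finite.injective_iff_surjective.2 (show Function.Surjective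
      (fun z : schurMult Q => z ^ p) from hall)
    obtain ⟨z, hz⟩ := exists_prime_orderOf_dvd_card' p hpM
    have : z = 1 := hinj (by show z ^ p = 1 ^ p; rw [one_pow, ← hz]; exact pow_orderOf_eq_one z)
    rw [this, orderOf_one] at hz
    exact hp.ne_one hz.symm
  let δ : K →* schurMult Q :=
    (zpowersHom (schurMult Q) m).comp
      (AddMonoidHom.toMultiplicative
        (((b.coord a).comp f.rangeRestrict).toAddMonoidHom.comp
          (MonoidHom.toAdditive (MonoidHom.id K))) |>.comp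
        { toFun := fun k => Multiplicative.ofAdd (Additive.ofMul k)
          map_one' := rfl
          map_mul' := fun _ _ => rfl })
  have hδl : δ ⟨l, hl⟩ = m ^ (b.repr r a) := rfl
  let K₂ : Subgroup (HopfExt Q) :=
    (MonoidHom.range
      ({ toFun := fun k : K => (k : HopfExt Q) * (δ k : HopfExt Q)
         map_one' := by simp
         map_mul' := fun k k' => by
          simp only [map_mul, Subgroup.coe_mul]
          rw [mul_assoc (k : HopfExt Q), ← mul_assoc (k' : HopfExt Q),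
            hopf_eq_comm (show (δ k : HopfExt Q) ∈ (hopfPi Q).ker from (δ k).2.1) (k' : HopfExt Q)]
          group } : K →* HopfExt Q))
  have h21 : K₂ ≤ (hopfPi Q).ker := by
    rintro _ ⟨k, rfl⟩
    exact mul_mem (hKC k.2) (δ k).2.1
  haveI := normal_of_le_ker h21
  have h22 : K₂ ⊓ commutator (HopfExt Q) = ⊥ := by
    rw [eq_bot_iff]
    rintro _ ⟨⟨k, rfl⟩, hk⟩
    have hk' : (k : HopfExt Q) ∈ K ⊓ commutator (HopfExt Q) := by
      refine ⟨k.2, ?_⟩
      have hk0 : (k : HopfExt Q) * (δ k : HopfExt Q) ∈ commutator (HopfExt Q) := hk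
      have := mul_mem hk0 (inv_mem (show (δ k : HopfExt Q) ∈ commutator (HopfExt Q) from (δ k).2.2))
      simpa using this
    rw [hK, Subgroup.mem_bot] at hk'
    have hk1 : k = 1 := Subtype.ext hk'
    subst hk1
    simp
  have h23 : K₂ ⊔ schurMult Q = (hopfPi Q).ker := by
    refine le_antisymm (sup_le h21 inf_le_left) ?_
    refine hsup.ge.trans (sup_le (fun k hk => ?_) (le_of_le_of_eq le_rfl rfl |>.trans le_sup_right))
    rw [show k = (k * (δ ⟨k, hk⟩ : HopfExt Q)) * (δ ⟨k, hk⟩ : HopfExt Q)⁻¹ by group]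
    exact mul_mem (mem_sup_left ⟨⟨k, hk⟩, rfl⟩) (mem_sup_right (inv_mem (δ ⟨k, hk⟩).2))
  obtain ⟨f₁, s₁, ⟨e₁⟩⟩ := cover_of_complement K hKC hK hsup
  obtain ⟨f₂, s₂, ⟨e₂⟩⟩ := cover_of_complement K₂ h21 h22 h23
  obtain ⟨e, he⟩ := h (HopfExt Q ⧸ K) (HopfExt Q ⧸ K₂) _ _ s₁ s₂ ⟨e₁.trans i.symm⟩ ⟨e₂.trans i.symm⟩
  set σ₂ := QuotientGroup.lift K₂ (hopfPi Q) h21
  obtain ⟨d, hd⟩ := exists_diff (a := QuotientGroup.mk' K₂)
    (b := e.toMonoidHom.comp (QuotientGroup.mk' K)) σ₂ s₂.2.1 (by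
      ext x
      have := DFunLike.congr_fun he (x : HopfExt Q ⧸ K)
      exact this.symm)
  letI : CommGroup σ₂.ker :=
    { (inferInstance : Group σ₂.ker) with
      mul_comm := fun a b => Subtype.ext (Subgroup.mem_center_iff.1 (s₂.2.1 b.2) _) }
  have hker : σ₂.ker = (schurMult Q).map (QuotientGroup.mk' K₂) := by
    rw [QuotientGroup.ker_lift]
    conv_lhs => rw [← h23]
    rw [Subgroup.map_sup, QuotientGroup.map_mk'_self, bot_sup_eq]
  obtain ⟨⟨w, hw, hwy⟩⟩ : Nonempty {w : HopfExt Q // w ∈ schurMult Q ∧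
      QuotientGroup.mk' K₂ w = d y} := by
    have h0 : (d y : HopfExt Q ⧸ K₂) ∈ (schurMult Q).map (QuotientGroup.mk' K₂) :=
      (le_of_eq hker) (d y).2
    obtain ⟨w, hw, hw'⟩ := h0
    exact ⟨⟨w, hw, hw'⟩⟩
  have hdc : ∀ g ∈ commutator (HopfExt Q), d g = 1 := by
    intro g hg
    exact (Abelianization.commutator_subset_ker d) hg
  have hdl1 : (d l : HopfExt Q ⧸ K₂) = QuotientGroup.mk' K₂ l := by
    have h5 := hd l
    simp only [MonoidHom.comp_apply] at h5
    rw [show QuotientGroup.mk' K l = 1 from (QuotientGroup.eq_one_iff l).2 hl, map_one, mul_one] at h5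
    exact h5.symm
  have hdl2 : d l = d y ^ p := by
    have h6 : d (y ^ p) = d (c * (l * m')) := by rw [hlm]; congr 1; group
    rw [map_mul, map_mul, hdc c hc, hdc m' hm'.2, one_mul, mul_one, map_pow] at h6
    exact h6.symm
  have hrel : (δ ⟨l, hl⟩ : HopfExt Q) * w ^ p ∈ K₂ := by
    rw [← QuotientGroup.eq_one_iff]
    show QuotientGroup.mk' K₂ _ = 1
    rw [map_mul, map_pow, hwy]
    have h7 : QuotientGroup.mk' K₂ (δ ⟨l, hl⟩ : HopfExt Q) = (QuotientGroup.mk' K₂ l)⁻¹ := by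
      rw [eq_inv_iff_mul_eq_one, ← map_mul, ← hopf_eq_comm (δ ⟨l, hl⟩).2.1 l]
      exact (QuotientGroup.eq_one_iff _).2 ⟨⟨l, hl⟩, rfl⟩
    rw [h7, ← hdl1, hdl2, SubgroupClass.coe_pow, inv_mul_cancel]
  have hrel' : δ ⟨l, hl⟩ * (⟨w, hw⟩ : schurMult Q) ^ p = 1 := by
    have h8 : (δ ⟨l, hl⟩ : HopfExt Q) * w ^ p ∈ K₂ ⊓ commutator (HopfExt Q) :=
      ⟨hrel, mul_mem (δ ⟨l, hl⟩).2.2 (pow_mem hw.2 p)⟩
    rw [h22, Subgroup.mem_bot] at h8
    exact Subtype.ext h8
  rw [hδl] at hrel'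
  obtain ⟨s, t, hst⟩ : IsCoprime (b.repr r a) (p : ℤ) :=
    ((Int.prime_iff_natAbs_prime.2 (by simpa using hp)).coprime_iff_not_dvd.2 ha).symm
  refine hm (((⟨w, hw⟩ : schurMult Q)⁻¹) ^ s * m ^ t) ?_
  have h9 : m ^ (b.repr r a) = ((⟨w, hw⟩ : schurMult Q)⁻¹) ^ p := by
    rw [inv_pow]; exact eq_inv_of_mul_eq_one_left hrel'
  calc (((⟨w, hw⟩ : schurMult Q)⁻¹) ^ s * m ^ t) ^ p
      = (((⟨w, hw⟩ : schurMult Q)⁻¹) ^ p) ^ s * m ^ (t * (p : ℤ)) := by
        rw [mul_pow, ← zpow_natCast, ← zpow_mul, ← zpow_natCast, ← zpow_mul, ← zpow_natCast,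
          ← zpow_mul, mul_comm s (p : ℤ)]
    _ = m ^ (s * b.repr r a + t * (p : ℤ)) := by
        rw [← h9, ← zpow_mul, ← zpow_add, mul_comm s]
    _ = m := by rw [hst, zpow_one]

end Cfsg.Agent.SchurMul
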